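/-
helper1: Bender–Glauberman Theorem 13.9 (row S1378, the sets σ(M) partition the primes):
shared definitions for the pieces of CALL S1378.
-/
import Cfsg.Prelude.Def_OddOrderLocal

set_option autoImplicit false

namespace Cfsg.Agent.Helper1

open Cfsg Subgroup

universe u

variable {G : Type u} [Group G]

/-- Row S1428 (B&G Corollary 13.3), as a hypothesis on `G`. -/
def BG1328 (G : Type u) [Group G] : Prop :=
  ∀ (M : Subgroup G), IsCoatom M → ∀ (E : Subgroup G), IsComplIn E (sigmaCore M) M →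
    ∀ (p : ℕ), p ∈ tau1 M → ∀ (P : Subgroup G), P ≤ E → Nat.card P = p →
      ∀ (R : Subgroup G), R ≤ E ⊓ centralizer (P : Set G) → (Nat.card R).Prime →
        sigmaCore M ⊓ centralizer (P : Set G) ≤ sigmaCore M ⊓ centralizer (R : Set G)

/-- The configuration to be refuted in B&G Theorem 13.9: two non-conjugate maximal subgroups
`M`, `Ms` sharing a Sylow `s`-subgroup `S` of `G` with `N_G(S) ≤ M ∩ Ms`, `s ∈ σ(M) ∩ σ(Ms)`. -/
structure BG139Cfg (M Ms S : Subgroup G) (s : ℕ) : Prop where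
  hM : IsCoatom M
  hMs : IsCoatom Ms
  hnc : ∀ g : G, Ms ≠ M.map (MulAut.conj g).toMonoidHom
  hs : s.Prime
  hsM : s ∈ sigma M
  hsMs : s ∈ sigma Ms
  hSp : IsPGroup s S
  hS1 : S ≠ ⊥
  hSmax : ∀ T : Subgroup G, IsPGroup s T → S ≤ T → T = S
  hN : normalizer (S : Set G) ≤ M ⊓ Ms

/-- The configuration is symmetric in `M` and `Ms`. -/
theorem BG139Cfg.symm {M Ms S : Subgroup G} {s : ℕ} (c : BG139Cfg M Ms S s) :
    BG139Cfg Ms M S s where
  hM := c.hMs
  hMs := c.hM
  hnc := by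
    intro g h
    apply c.hnc g⁻¹
    rw [h, Subgroup.map_map]
    ext x
    simp only [Subgroup.mem_map, MonoidHom.coe_comp, MulEquiv.coe_toMonoidHom, Function.comp_apply,
      MulAut.conj_apply, MulAut.conj_inv_apply]
    constructor
    · intro hx
      exact ⟨x, hx, by group⟩
    · rintro ⟨y, hy, rfl⟩
      have : g⁻¹ * (g * y * g⁻¹) * g⁻¹⁻¹ = y := by group
      rw [this]; exact hy
  hs := c.hs
  hsM := c.hsMs
  hsMs := c.hsM
  hSp := c.hSp
  hS1 := c.hS1
  hSmax := c.hSmax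
  hN := by rw [inf_comm]; exact c.hN

end Cfsg.Agent.Helper1
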