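/-
helper1: piece D4 of CALL S1378 (B&G 13.9): a subgroup `Y` of prime order of `M`, prime to `σ(M)`,
centralizing a `τ₁(M)`-subgroup `P` of prime order of a complement `E` of `M_σ`, lies in `E`.
-/
import Cfsg.Agent.Helper1.BG139Defs
import Cfsg.Agent.Helper23.Trans

set_option autoImplicit false

namespace Cfsg.Agent.Helper1

open Cfsg Subgroup

universe u

variable {G : Type u} [Group G] [Finite G]

/-- PIECE `D4` of CALL S1378. -/
theorem bg139_Y_le_E (hG : IsMinSimpleOddOrder G) (h28 : BG1328 G) {M E P Y : Subgroup G}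
    (hM : IsCoatom M) (hE : IsComplIn E (sigmaCore M) M) {p : ℕ} (hp : p ∈ tau1 M)
    (hPE : P ≤ E) (hPc : Nat.card P = p) (hYM : Y ≤ M) (hYc : (Nat.card Y).Prime)
    (hYσ : Nat.card Y ∉ sigma M) (hYP : Y ≤ centralizer (P : Set G)) : Y ≤ E := by
  obtain ⟨hEM, hσM, hEσ, hfac⟩ := hE
  have hnorm : M ≤ normalizer ((sigmaCore M : Subgroup G) : Set G) :=
    Helper23.le_normalizer_piCoreOf (sigma M) M
  have hbot : ∀ g : G, g ∈ E → g ∈ sigmaCore M → g = 1 := by
    intro g h1 h2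
    have : g ∈ E ⊓ sigmaCore M := Subgroup.mem_inf.mpr ⟨h1, h2⟩
    rwa [hEσ, Subgroup.mem_bot] at this
  have hconj : ∀ g ∈ M, ∀ c ∈ sigmaCore M, g * c * g⁻¹ ∈ sigmaCore M := by
    intro g hg c hc
    exact (mem_normalizer_iff.mp (hnorm hg) c).mp hc
  intro y hy
  by_cases hy1 : y = 1
  · rw [hy1]; exact Subgroup.one_mem _
  set u := Nat.card Y with hu
  obtain ⟨a, ha, b, hb, hyab⟩ := hfac y (hYM hy)
  have haM : a ∈ M := hEM ha
  -- `a` and `b` centralize `P`
  have hcent : ∀ x ∈ P, x * a * x⁻¹ = a ∧ x * b * x⁻¹ = b := by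
    intro x hx
    have hxy : x * y = y * x := (mem_centralizer_iff.mp (hYP hy) x hx)
    have hxE : x ∈ E := hPE hx
    have h1 : a⁻¹ * (x * a * x⁻¹) = b * (x * b * x⁻¹)⁻¹ := by
      have h2 : x * a * x⁻¹ * (x * b * x⁻¹) = a * b := by
        have : x * a * x⁻¹ * (x * b * x⁻¹) = x * (a * b) * x⁻¹ := by group
        rw [this, ← hyab, hxy]; group
      have h3 : x * a * x⁻¹ = a * b * (x * b * x⁻¹)⁻¹ := by
        rw [← h2]; group
      rw [h3]; group
    have h4 : a⁻¹ * (x * a * x⁻¹) ∈ E :=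
      Subgroup.mul_mem _ (Subgroup.inv_mem _ ha)
        (Subgroup.mul_mem _ (Subgroup.mul_mem _ hxE ha) (Subgroup.inv_mem _ hxE))
    have h5 : a⁻¹ * (x * a * x⁻¹) ∈ sigmaCore M := by
      rw [h1]
      exact Subgroup.mul_mem _ hb (Subgroup.inv_mem _ (hconj x (hEM hxE) b hb))
    have h6 := hbot _ h4 h5
    have h7 : x * a * x⁻¹ = a := by
      have : x * a * x⁻¹ = a * (a⁻¹ * (x * a * x⁻¹)) := by group
      rw [this, h6, mul_one]
    refine ⟨h7, ?_⟩
    rw [h6] at h1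
    have : x * b * x⁻¹ = (b * (x * b * x⁻¹)⁻¹)⁻¹ * b := by group
    rw [this, ← h1]; group
  -- powers of `y = a * b`
  have hpow : ∀ n : ℕ, ∃ c ∈ sigmaCore M, (a * b) ^ n = a ^ n * c := by
    intro n
    induction n with
    | zero => exact ⟨1, Subgroup.one_mem _, by simp⟩
    | succ n ih =>
      obtain ⟨c, hc, hcn⟩ := ih
      refine ⟨a⁻¹ * c * a * b, ?_, ?_⟩
      · refine Subgroup.mul_mem _ ?_ hb
        have := hconj a⁻¹ (Subgroup.inv_mem _ haM) c hc
        rwa [inv_inv] at this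
      · rw [pow_succ, hcn, pow_succ]; group
  have hyu : y ^ u = 1 := by
    have h1 : (⟨y, hy⟩ : ↥Y) ^ Nat.card ↥Y = 1 := pow_card_eq_one'
    have h2 : ((⟨y, hy⟩ : ↥Y) ^ Nat.card ↥Y : ↥Y).1 = (1 : ↥Y).1 := congrArg Subtype.val h1
    rw [Subgroup.coe_pow, Subgroup.coe_one] at h2
    exact h2
  have hau : a ^ u = 1 := by
    obtain ⟨c, hc, hcn⟩ := hpow u
    rw [← hyab, hyu] at hcn
    apply hbot _ (Subgroup.pow_mem _ ha _)
    have : a ^ u = c⁻¹ := by
      have h2 : a ^ u * c = 1 := hcn.symm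
      exact eq_inv_of_mul_eq_one_left h2
    rw [this]; exact Subgroup.inv_mem _ hc
  have hnd : ¬ u ∣ Nat.card (sigmaCore M) := fun hd =>
    hYσ (Helper23.mem_of_dvd_card_piCoreOf (sigma M) M hYc hd)
  have hnσ : ∀ g : G, g ∈ sigmaCore M → g ^ u = 1 → g = 1 := by
    intro g hg hgu
    have h1 : orderOf g ∣ u := orderOf_dvd_of_pow_eq_one hgu
    rcases (Nat.dvd_prime hYc).mp h1 with h | h
    · exact orderOf_eq_one_iff.mp h
    · exact absurd (h ▸ Subgroup.orderOf_dvd_natCard _ hg) hnd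
  have ha1 : a ≠ 1 := by
    intro h
    rw [h, one_mul] at hyab
    apply hy1
    apply hnσ y (hyab ▸ hb) hyu
  have hao : orderOf a = u := by
    rcases (Nat.dvd_prime hYc).mp (orderOf_dvd_of_pow_eq_one hau) with h | h
    · exact absurd (orderOf_eq_one_iff.mp h) ha1
    · exact h
  -- `b` commutes with `a` by S1428
  have hRc : Nat.card (zpowers a) = u := by rw [Nat.card_zpowers, hao]
  have hRE : zpowers a ≤ E ⊓ centralizer (P : Set G) := by
    rw [zpowers_le]
    refine Subgroup.mem_inf.mpr ⟨ha, ?_⟩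
    rw [mem_centralizer_iff]
    intro x hx
    have := (hcent x hx).1
    calc x * a = x * a * x⁻¹ * x := by group
      _ = a * x := by rw [this]
  have h := h28 M hM E ⟨hEM, hσM, hEσ, hfac⟩ p hp P hPE hPc (zpowers a) hRE (hRc ▸ hYc)
  have hbP : b ∈ sigmaCore M ⊓ centralizer (P : Set G) := by
    refine Subgroup.mem_inf.mpr ⟨hb, ?_⟩
    rw [mem_centralizer_iff]
    intro x hx
    have := (hcent x hx).2
    calc x * b = x * b * x⁻¹ * x := by group
      _ = b * x := by rw [this]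
  have hba : a * b = b * a :=
    mem_centralizer_iff.mp (Subgroup.mem_inf.mp (h hbP)).2 a (mem_zpowers a)
  have hbu : b ^ u = 1 := by
    have h1 : (a * b) ^ u = a ^ u * b ^ u := (Commute.mul_pow hba u)
    rw [← hyab, hyu, hau, one_mul] at h1
    exact h1.symm
  have hb1 : b = 1 := hnσ b hb hbu
  rw [hyab, hb1, mul_one]
  exact ha

end Cfsg.Agent.Helper1
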