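import Cfsg.Prelude.Def_OddOrderLocal
import Cfsg.Agent.Helper1.MinNormal
import Cfsg.Agent.Helper1.PQ
import Cfsg.Agent.Helper71.Fitting
import Cfsg.Agent.Helper73.FittingSolvable
import Cfsg.Agent.Helper25.CN
import Cfsg.Agent.Helper25.CN3
import Cfsg.Agent.Helper35.SZ
import Cfsg.Agent.Helper35.Coprime
import Cfsg.Agent.Helper49.AxB

/-!
# Bender-type uniqueness lemmas (B&G), part A

`H` a subgroup of a finite group `G`, `F = fittingOf H`:

* `bgu_le_fittingOf`, `bgu_fittingOf_isNilpotent`, `bgu_normalizer_le_normalizer_fittingOf`;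
* `bguZ F p`: the elements of order dividing `p` in the centre of `F` (a characteristic
  `p`-subgroup of `F`, nontrivial when `F` is nilpotent and `p ∣ #F`);
* `bgu_E`: a `p`-element of `M ∩ F` centralizes every `M`-invariant subgroup of `H` without
  `p`-elements;
* `bgu_T`: if `M ≤ F`, `C_F(M) ≤ M`, an `M`-invariant `π(F)'`-subgroup of `H` centralizes `F`;
* `bgu_solvable_le_fittingOf`: a solvable subgroup of `C_H(F)` normalized by `C_H(F)` lies in `F`;
* `bgu_N3`: an `M`-invariant `π(F)'`-subgroup of `H ∩ R` is trivial (`R` solvable, normalized by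
  `C_H(F)`).
-/

set_option autoImplicit false
open scoped Pointwise

namespace Cfsg.Agent.Helper1

universe u

open scoped commutatorElement

variable {G : Type u} [Group G]

theorem bgu_fittingOf_le (H : Subgroup G) : Cfsg.fittingOf H ≤ H := Subgroup.map_subtype_le _

theorem bgu_fittingOf_isNilpotent [Finite G] (H : Subgroup G) :
    Group.IsNilpotent (Cfsg.fittingOf H) := by
  haveI := Cfsg.Agent.Helper71.fittingSubgroup_isNilpotent ↥H
  exact Group.nilpotent_of_mulEquiv
    ((Cfsg.fittingSubgroup ↥H).equivMapOfInjective H.subtype H.subtype_injective)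

theorem bgu_le_normalizer_fittingOf (H : Subgroup G) :
    H ≤ Subgroup.normalizer (Cfsg.fittingOf H : Set G) := by
  rw [Subgroup.le_normalizer_iff]
  rintro x hx _ ⟨y, hy, rfl⟩
  exact ⟨⟨x, hx⟩ * y * ⟨x, hx⟩⁻¹,
    (Cfsg.Agent.Helper71.fittingSubgroup_normal ↥H).conj_mem y hy ⟨x, hx⟩, rfl⟩

theorem bgu_le_fittingOf {H U : Subgroup G} (hUH : U ≤ H)
    (hn : H ≤ Subgroup.normalizer (U : Set G)) (hnil : Group.IsNilpotent U) :
    U ≤ Cfsg.fittingOf H := by
  have hN : (U.subgroupOf H).Normal := Subgroup.normal_subgroupOf_of_le_normalizer hn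
  have hnil' : Group.IsNilpotent (U.subgroupOf H) := by
    haveI := hnil
    exact Group.nilpotent_of_mulEquiv (Subgroup.subgroupOfEquivOfLe hUH).symm
  have h1 : U.subgroupOf H ≤ Cfsg.fittingSubgroup ↥H :=
    Cfsg.Agent.Helper71.le_fittingSubgroup _ hN hnil'
  intro y hy
  exact ⟨⟨y, hUH hy⟩, h1 (by rw [Subgroup.mem_subgroupOf]; exact hy), rfl⟩

theorem bgu_normalizer_le_normalizer_fittingOf [Finite G] (H : Subgroup G) :
    Subgroup.normalizer (H : Set G) ≤ Subgroup.normalizer (Cfsg.fittingOf H : Set G) := by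
  intro g hg
  rw [Cfsg.Agent.Helper35.mem_normalizer_iff_conj_smul_eq]
  have hgH : MulAut.conj g • H = H := Cfsg.Agent.Helper35.conj_smul_eq_self_of_mem_normalizer hg
  have hle : MulAut.conj g • Cfsg.fittingOf H ≤ Cfsg.fittingOf H := by
    apply bgu_le_fittingOf
    · have := Cfsg.Agent.Helper35.conj_smul_le_conj_smul (g := g) (bgu_fittingOf_le H)
      rwa [hgH] at this
    · have := Cfsg.Agent.Helper35.conj_smul_le_normalizer (bgu_le_normalizer_fittingOf H) g
      rwa [hgH] at this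
    · haveI := bgu_fittingOf_isNilpotent H
      exact Group.nilpotent_of_mulEquiv (Subgroup.equivSMul (MulAut.conj g) (Cfsg.fittingOf H))
  exact Subgroup.eq_of_le_of_card_ge hle (by rw [Cfsg.Agent.Helper35.card_conj_smul])

/-- The elements of order dividing `p` in the centre of `F`. -/
def bguZ (F : Subgroup G) (p : ℕ) : Subgroup G where
  carrier := {z | z ∈ F ∧ (∀ f ∈ F, Commute z f) ∧ z ^ p = 1}
  mul_mem' := by
    rintro a b ⟨ha, hac, hap⟩ ⟨hb, hbc, hbp⟩
    refine ⟨F.mul_mem ha hb, fun f hf => (hac f hf).mul_left (hbc f hf), ?_⟩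
    rw [(hac b hb).mul_pow, hap, hbp, one_mul]
  one_mem' := ⟨F.one_mem, fun f _ => Commute.one_left f, one_pow p⟩
  inv_mem' := by
    rintro a ⟨ha, hac, hap⟩
    exact ⟨F.inv_mem ha, fun f hf => (hac f hf).inv_left, by rw [inv_pow, hap, inv_one]⟩

theorem bguZ_mem {F : Subgroup G} {p : ℕ} {z : G} :
    z ∈ bguZ F p ↔ z ∈ F ∧ (∀ f ∈ F, Commute z f) ∧ z ^ p = 1 := Iff.rfl

theorem bguZ_le (F : Subgroup G) (p : ℕ) : bguZ F p ≤ F := fun _ hz => hz.1

theorem bguZ_le_centralizer (F : Subgroup G) (p : ℕ) :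
    bguZ F p ≤ Subgroup.centralizer (F : Set G) := by
  intro z hz
  rw [Subgroup.mem_centralizer_iff]
  intro f hf
  exact ((hz.2.1 f hf).eq).symm

theorem bguZ_isPGroup (F : Subgroup G) (p : ℕ) : IsPGroup p (bguZ F p) := by
  rintro ⟨z, hz⟩
  refine ⟨1, ?_⟩
  apply Subtype.ext
  simp [hz.2.2]

theorem bguZ_conj_mem {F : Subgroup G} {p : ℕ} {g z : G}
    (hg : g ∈ Subgroup.normalizer (F : Set G)) (hz : z ∈ bguZ F p) :
    g * z * g⁻¹ ∈ bguZ F p := by
  obtain ⟨hzF, hc, hp⟩ := hz
  rw [Subgroup.mem_normalizer_iff] at hg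
  refine ⟨(hg z).mp hzF, ?_, by rw [conj_pow, hp]; simp⟩
  intro f hf
  have hf' : g⁻¹ * f * g ∈ F := by
    rw [hg]
    have : g * (g⁻¹ * f * g) * g⁻¹ = f := by group
    rwa [this]
  have h1 := hc _ hf'
  show g * z * g⁻¹ * f = f * (g * z * g⁻¹)
  have h2 : z * (g⁻¹ * f * g) = g⁻¹ * f * g * z := h1.eq
  calc g * z * g⁻¹ * f = g * (z * (g⁻¹ * f * g)) * g⁻¹ := by group
    _ = g * (g⁻¹ * f * g * z) * g⁻¹ := by rw [h2]
    _ = f * (g * z * g⁻¹) := by group

theorem bguZ_normalizer (F : Subgroup G) (p : ℕ) :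
    Subgroup.normalizer (F : Set G) ≤ Subgroup.normalizer (bguZ F p : Set G) := by
  intro g hg
  rw [Subgroup.mem_normalizer_iff]
  intro z
  refine ⟨bguZ_conj_mem hg, fun h => ?_⟩
  have := bguZ_conj_mem (Subgroup.inv_mem _ hg) h
  have e : g⁻¹ * (g * z * g⁻¹) * g⁻¹⁻¹ = z := by group
  rwa [e] at this

theorem bguZ_ne_bot [Finite G] {F : Subgroup G} (hF : Group.IsNilpotent F) {p : ℕ} (hp : p.Prime)
    (hdvd : p ∣ Nat.card F) : bguZ F p ≠ ⊥ := by
  haveI : Fact p.Prime := ⟨hp⟩
  obtain ⟨x, hx⟩ := exists_prime_orderOf_dvd_card' p hdvd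
  have hx1 : (x : G) ≠ 1 := by
    intro h
    have : orderOf (x : G) = 1 := by rw [h, orderOf_one]
    rw [Subgroup.orderOf_coe, hx] at this
    exact hp.one_lt.ne' this
  obtain ⟨w, hwF, hw1, ⟨n, hwn⟩, hwc⟩ := Cfsg.Agent.Helper25.exists_central_pElt F hF p hp x.2 hx1
    ⟨1, by rw [Subgroup.orderOf_coe, hx, pow_one]⟩
  have hn : n ≠ 0 := by
    rintro rfl
    rw [pow_zero, orderOf_eq_one_iff] at hwn
    exact hw1 hwn
  obtain ⟨m, rfl⟩ := Nat.exists_eq_succ_of_ne_zero hn
  have hw' : w ^ p ^ m ∈ bguZ F p :=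
    ⟨F.pow_mem hwF _, fun f hf => (hwc f hf).pow_left _, by
      rw [← pow_mul, ← pow_succ, ← hwn]; exact pow_orderOf_eq_one w⟩
  have hw'1 : w ^ p ^ m ≠ 1 := by
    intro h
    have h2 := orderOf_dvd_of_pow_eq_one h
    rw [hwn] at h2
    have h3 := (Nat.pow_dvd_pow_iff_le_right hp.one_lt).mp h2
    omega
  intro hbot
  rw [hbot, Subgroup.mem_bot] at hw'
  exact hw'1 hw'

/-- (E): a `p`-element of `M ∩ F(H)` centralizes every `M`-invariant subgroup of `H` that has no
nontrivial `p`-elements. -/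
theorem bgu_E [Finite G] {H C M : Subgroup G} (hCH : C ≤ H)
    (hMC : M ≤ Subgroup.normalizer (C : Set G)) {p : ℕ} (hp : p.Prime)
    (hC : ∀ c ∈ C, (∃ k : ℕ, c ^ p ^ k = 1) → c = 1)
    {m : G} (hmM : m ∈ M) (hmF : m ∈ Cfsg.fittingOf H) (hm : ∃ n, orderOf m = p ^ n) :
    m ∈ Subgroup.centralizer (C : Set G) := by
  obtain ⟨Q, hQ, hQmem⟩ := Cfsg.Agent.Helper25.exists_pElts_subgroup (Cfsg.fittingOf H)
    (bgu_fittingOf_isNilpotent H) p hp
  rw [Subgroup.mem_centralizer_iff]
  intro c hc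
  have h1 : c * m * c⁻¹ ∈ Q := by
    rw [hQmem]
    refine ⟨?_, ?_⟩
    · exact (Subgroup.mem_normalizer_iff.mp (bgu_le_normalizer_fittingOf H (hCH hc)) m).mp hmF
    · rw [Cfsg.Agent.Helper25.orderOf_conj']; exact hm
  have h2 : m⁻¹ ∈ Q := Q.inv_mem ((hQmem m).mpr ⟨hmF, hm⟩)
  have h3 : c * m * c⁻¹ * m⁻¹ ∈ Q := Q.mul_mem h1 h2
  have h4 : c * m * c⁻¹ * m⁻¹ ∈ C := by
    have h5 : m * c⁻¹ * m⁻¹ ∈ C :=
      (Subgroup.mem_normalizer_iff.mp (hMC hmM) c⁻¹).mp (C.inv_mem hc)
    have e : c * m * c⁻¹ * m⁻¹ = c * (m * c⁻¹ * m⁻¹) := by group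
    rw [e]
    exact C.mul_mem hc h5
  have h6 : c * m * c⁻¹ * m⁻¹ = 1 :=
    hC _ h4 (Cfsg.Agent.Helper49.pow_eq_one_of_mem_isPGroup hQ h3)
  calc c * m = (c * m * c⁻¹ * m⁻¹) * (m * c) := by group
    _ = m * c := by rw [h6, one_mul]

/-- A subgroup whose order is prime to `p` has no nontrivial `p`-elements. -/
theorem bgu_no_pElt [Finite G] {T : Subgroup G} {p : ℕ} (hp : p.Prime)
    (hT : ¬ p ∣ Nat.card T) : ∀ c ∈ T, (∃ k : ℕ, c ^ p ^ k = 1) → c = 1 := by
  rintro c hc ⟨k, hk⟩
  obtain ⟨j, -, hj⟩ := (Nat.dvd_prime_pow hp).mp (orderOf_dvd_of_pow_eq_one hk)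
  have h1 : orderOf c ∣ Nat.card T := by
    have := orderOf_dvd_natCard (⟨c, hc⟩ : T)
    rwa [Subgroup.orderOf_mk] at this
  rcases Nat.eq_zero_or_pos j with rfl | hjpos
  · rwa [pow_zero, orderOf_eq_one_iff] at hj
  · exfalso
    apply hT
    refine dvd_trans ?_ h1
    rw [hj]
    exact dvd_pow_self p hjpos.ne'

/-- (T): if `M ≤ F = F(H)` and `C_F(M) ≤ M`, an `M`-invariant subgroup of `H` of order prime to
`#F` centralizes `F`. -/
theorem bgu_T [Finite G] {H M T : Subgroup G} (hM : M ≤ Cfsg.fittingOf H)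
    (hCM : Cfsg.fittingOf H ⊓ Subgroup.centralizer (M : Set G) ≤ M)
    (hTH : T ≤ H) (hMT : M ≤ Subgroup.normalizer (T : Set G))
    (hT : ∀ p : ℕ, p.Prime → p ∣ Nat.card T → ¬ p ∣ Nat.card (Cfsg.fittingOf H)) :
    T ≤ Subgroup.centralizer (Cfsg.fittingOf H : Set G) := by
  have hFnil := bgu_fittingOf_isNilpotent H
  -- Step 1: `M` centralizes `T`
  have hMT' : M ≤ Subgroup.centralizer (T : Set G) := by
    apply Cfsg.Agent.Helper25.le_of_forall_primePow_mem
    intro c hc q n hq hord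
    rcases Nat.eq_zero_or_pos n with rfl | hn
    · rw [pow_zero, orderOf_eq_one_iff] at hord
      rw [hord]; exact Subgroup.one_mem _
    · have hqF : q ∣ Nat.card (Cfsg.fittingOf H) := by
        have h1 : orderOf c ∣ Nat.card (Cfsg.fittingOf H) := by
          have := orderOf_dvd_natCard (⟨c, hM hc⟩ : Cfsg.fittingOf H)
          rwa [Subgroup.orderOf_mk] at this
        refine dvd_trans ?_ h1
        rw [hord]; exact dvd_pow_self q hn.ne'
      have hqT : ¬ q ∣ Nat.card T := fun h => hT q hq h hqF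
      exact bgu_E hTH hMT hq (bgu_no_pElt hq hqT) hc (hM hc) ⟨n, hord⟩
  -- Step 2
  intro t ht
  have key : Cfsg.fittingOf H ≤ Subgroup.centralizer ({t} : Set G) := by
    apply Cfsg.Agent.Helper25.le_of_forall_primePow_mem
    intro f hf r n hr hord
    rw [Subgroup.mem_centralizer_singleton_iff]
    rcases Nat.eq_zero_or_pos n with rfl | hn
    · rw [pow_zero, orderOf_eq_one_iff] at hord
      rw [hord, one_mul, mul_one]
    · haveI : Fact r.Prime := ⟨hr⟩
      have hrF : r ∣ Nat.card (Cfsg.fittingOf H) := by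
        have h1 : orderOf f ∣ Nat.card (Cfsg.fittingOf H) := by
          have := orderOf_dvd_natCard (⟨f, hf⟩ : Cfsg.fittingOf H)
          rwa [Subgroup.orderOf_mk] at this
        refine dvd_trans ?_ h1
        rw [hord]; exact dvd_pow_self r hn.ne'
      have hrT : ¬ r ∣ Nat.card T := fun h => hT r hr h hrF
      obtain ⟨Qr, hQr, hQrmem⟩ := Cfsg.Agent.Helper25.exists_pElts_subgroup (Cfsg.fittingOf H)
        hFnil r hr
      obtain ⟨Mr, hMr, hMrmem⟩ := Cfsg.Agent.Helper25.exists_pElts_subgroup M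
        (Cfsg.Agent.Helper25.isNilpotent_of_le hM hFnil) r hr
      have hHQr : H ≤ Subgroup.normalizer (Qr : Set G) := by
        rw [Subgroup.le_normalizer_iff]
        intro h hh k hk
        rw [hQrmem] at hk ⊢
        refine ⟨(Subgroup.mem_normalizer_iff.mp (bgu_le_normalizer_fittingOf H hh) k).mp hk.1, ?_⟩
        rw [Cfsg.Agent.Helper25.orderOf_conj']; exact hk.2
      have hPn : (Qr.subgroupOf H).Normal := Subgroup.normal_subgroupOf_of_le_normalizer hHQr
      have hPp : IsPGroup r (Qr.subgroupOf H) := hQr.comap_subtype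
      have hQp : IsPGroup r (Mr.subgroupOf H) := hMr.comap_subtype
      have hxQ : (⟨t, hTH ht⟩ : H) ∈ Subgroup.centralizer ((Mr.subgroupOf H : Subgroup H) : Set H) := by
        rw [Subgroup.mem_centralizer_iff]
        intro h hh
        rw [SetLike.mem_coe, Subgroup.mem_subgroupOf] at hh
        have h1 : (h : G) ∈ M := ((hMrmem _).mp hh).1
        have h2 := Subgroup.mem_centralizer_iff.mp (hMT' h1) t ht
        apply Subtype.ext
        exact h2.symm
      have hx : (orderOf (⟨t, hTH ht⟩ : H)).Coprime r := by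
        rw [Subgroup.orderOf_mk]
        apply Nat.Coprime.symm
        rw [Nat.Prime.coprime_iff_not_dvd hr]
        intro h
        apply hrT
        refine dvd_trans h ?_
        have := orderOf_dvd_natCard (⟨t, ht⟩ : T)
        rwa [Subgroup.orderOf_mk] at this
      have hfix : ∀ u ∈ Qr.subgroupOf H,
          u ∈ Subgroup.centralizer ((Mr.subgroupOf H : Subgroup H) : Set H) →
          Commute (⟨t, hTH ht⟩ : H) u := by
        intro u hu hucent
        rw [Subgroup.mem_subgroupOf, hQrmem] at hu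
        obtain ⟨huF, k, huk⟩ := hu
        have huM : (u : G) ∈ M := by
          apply hCM
          refine Subgroup.mem_inf.mpr ⟨huF, ?_⟩
          rw [Subgroup.mem_centralizer_iff]
          have h3 : M ≤ Subgroup.centralizer ({(u : G)} : Set G) := by
            apply Cfsg.Agent.Helper25.le_of_forall_primePow_mem
            intro c hc s j hs hcord
            rw [Subgroup.mem_centralizer_singleton_iff]
            by_cases hsr : s = r
            · subst hsr
              have hcMr : c ∈ Mr := (hMrmem c).mpr ⟨hc, j, hcord⟩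
              have h4 := Subgroup.mem_centralizer_iff.mp hucent ⟨c, hM.trans (bgu_fittingOf_le H) hc⟩
                (by rw [SetLike.mem_coe, Subgroup.mem_subgroupOf]; exact hcMr)
              exact congrArg Subtype.val h4
            · have hcop : (orderOf c).Coprime (orderOf (u : G)) := by
                rw [hcord, huk]
                exact Nat.Coprime.pow _ _ ((Nat.coprime_primes hs hr).mpr hsr)
              exact (Cfsg.Agent.Helper25.commute_of_coprime_of_mem_nilpotent (Cfsg.fittingOf H)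
                hFnil (hM hc) huF hcop).eq
          intro m hm
          have := h3 hm
          rw [Subgroup.mem_centralizer_singleton_iff] at this
          exact this
        have h5 := Subgroup.mem_centralizer_iff.mp (hMT' huM) t ht
        show (⟨t, hTH ht⟩ : H) * u = u * ⟨t, hTH ht⟩
        apply Subtype.ext
        exact h5
      have hcent := Cfsg.Agent.Helper49.mem_centralizer_of_commute_fixedPoints hPn hPp hQp hxQ hx hfix
      have hfP : (⟨f, bgu_fittingOf_le H hf⟩ : H) ∈ Qr.subgroupOf H := by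
        rw [Subgroup.mem_subgroupOf, hQrmem]
        exact ⟨hf, n, hord⟩
      have h6 := Subgroup.mem_centralizer_iff.mp hcent _ hfP
      exact congrArg Subtype.val h6
  rw [Subgroup.mem_centralizer_iff]
  intro f hf
  have := key hf
  rw [Subgroup.mem_centralizer_singleton_iff] at this
  exact this

end Cfsg.Agent.Helper1
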