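import Cfsg.Agent.Helper1.BGUniqA

/-!
# Bender-type uniqueness lemmas (B&G), part B

* `bgu_solvable_le_fittingOf`: a solvable subgroup of `C_H(F(H))` normalized by `C_H(F(H))` lies
  in `F(H)`;
* `bgu_N3`: an `M`-invariant `π(F)'`-subgroup of `H ∩ R` is trivial.
-/

set_option autoImplicit false
open scoped Pointwise

namespace Cfsg.Agent.Helper1

universe u

open scoped commutatorElement

variable {G : Type u} [Group G]

theorem bgu_le_normalizer_X (H : Subgroup G) :
    H ≤ Subgroup.normalizer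
      ((H ⊓ Subgroup.centralizer (Cfsg.fittingOf H : Set G) : Subgroup G) : Set G) := by
  refine le_trans ?_ Subgroup.inf_normalizer_le_normalizer_inf
  exact le_inf Subgroup.le_normalizer
    ((bgu_le_normalizer_fittingOf H).trans
      (Cfsg.Agent.Helper49.normalizer_le_normalizer_centralizer _))

theorem bgu_solvable_le_fittingOf [Finite G] (H : Subgroup G) :
    ∀ n : ℕ, ∀ Y : Subgroup G, Nat.card Y = n →
      Y ≤ H ⊓ Subgroup.centralizer (Cfsg.fittingOf H : Set G) →
      H ⊓ Subgroup.centralizer (Cfsg.fittingOf H : Set G) ≤ Subgroup.normalizer (Y : Set G) →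
      Group.IsSolvable Y → Y ≤ Cfsg.fittingOf H := by
  intro n
  induction n using Nat.strong_induction_on with
  | _ n ih =>
    intro Y hn hYX hXY hsolv
    by_cases hbot : Y = ⊥
    · rw [hbot]; exact bot_le
    haveI := hsolv
    have hlt : ⁅Y, Y⁆ < Y := commutator_lt_of_solvable Y hbot
    have hcardlt : Nat.card (⁅Y, Y⁆ : Subgroup G) < n := by
      rw [← hn]
      by_contra hcon
      exact hlt.ne (Subgroup.eq_of_le_of_card_ge hlt.le (not_lt.mp hcon))
    have hY' : (⁅Y, Y⁆ : Subgroup G) ≤ Cfsg.fittingOf H := by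
      apply ih _ hcardlt _ rfl (hlt.le.trans hYX)
      · intro x hx
        exact mem_normalizer_commutator (hXY hx) (hXY hx)
      · exact Cfsg.Agent.Helper35.isSolvable_of_le hlt.le hsolv
    -- `Y` is nilpotent of class at most 2
    have hnil : Group.IsNilpotent Y := by
      apply Cfsg.Agent.Helper73.isNilpotent_of_commutator_central
      intro a ha b hb c hc
      have h1 : ⁅a, b⁆ ∈ Cfsg.fittingOf H := hY' (Subgroup.commutator_mem_commutator ha hb)
      have h2 : c ∈ Subgroup.centralizer (Cfsg.fittingOf H : Set G) := (hYX hc).2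
      exact Subgroup.mem_centralizer_iff.mp h2 _ h1
    -- `Y ≤ F(X) ≤ F(H)`
    have h3 : Y ≤ Cfsg.fittingOf (H ⊓ Subgroup.centralizer (Cfsg.fittingOf H : Set G)) :=
      bgu_le_fittingOf hYX hXY hnil
    have h4 : Cfsg.fittingOf (H ⊓ Subgroup.centralizer (Cfsg.fittingOf H : Set G)) ≤
        Cfsg.fittingOf H := by
      apply bgu_le_fittingOf ((bgu_fittingOf_le _).trans inf_le_left)
      · exact (bgu_le_normalizer_X H).trans (bgu_normalizer_le_normalizer_fittingOf _)
      · exact bgu_fittingOf_isNilpotent _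
    exact h3.trans h4

/-- (N3): an `M`-invariant subgroup of `H ∩ R` of order prime to `#F(H)` is trivial. -/
theorem bgu_N3 [Finite G] {H M R T : Subgroup G} (hM : M ≤ Cfsg.fittingOf H)
    (hCM : Cfsg.fittingOf H ⊓ Subgroup.centralizer (M : Set G) ≤ M)
    (hR : Group.IsSolvable R)
    (hXR : H ⊓ Subgroup.centralizer (Cfsg.fittingOf H : Set G) ≤ Subgroup.normalizer (R : Set G))
    (hTH : T ≤ H) (hTR : T ≤ R) (hMT : M ≤ Subgroup.normalizer (T : Set G))
    (hT : ∀ p : ℕ, p.Prime → p ∣ Nat.card T → ¬ p ∣ Nat.card (Cfsg.fittingOf H)) :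
    T = ⊥ := by
  have h1 : T ≤ Subgroup.centralizer (Cfsg.fittingOf H : Set G) := bgu_T hM hCM hTH hMT hT
  have h2 : (H ⊓ Subgroup.centralizer (Cfsg.fittingOf H : Set G)) ⊓ R ≤ Cfsg.fittingOf H := by
    apply bgu_solvable_le_fittingOf H _ _ rfl inf_le_left
    · refine le_trans ?_ Subgroup.inf_normalizer_le_normalizer_inf
      exact le_inf Subgroup.le_normalizer hXR
    · exact Cfsg.Agent.Helper35.isSolvable_of_le inf_le_right hR
  have h3 : T ≤ Cfsg.fittingOf H := (le_inf (le_inf hTH h1) hTR).trans h2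
  by_contra hne
  have hcard : Nat.card T ≠ 1 := by
    intro h
    exact hne (Subgroup.card_eq_one.mp h)
  obtain ⟨p, hp, hpT⟩ := Nat.exists_prime_and_dvd hcard
  exact hT p hp hpT (dvd_trans hpT (Subgroup.card_dvd_of_le h3))

end Cfsg.Agent.Helper1
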