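import Cfsg.Agent.Helper1.BGUniqB

/-!
# Bender-type uniqueness lemmas (B&G), part C: the quotient lemma

`bgu_quot_trivial`: in a finite group `Γ` with a solvable normal subgroup `Rb` having no
nontrivial `Γ`-normal `r`-subgroups for `r ∉ π`, a `q`-subgroup (`q ∉ π`) of `Rb` that
centralizes every `Γ`-normal `r`-subgroup of `Rb` (`r ∈ π`) is trivial.
-/

set_option autoImplicit false
open scoped Pointwise

namespace Cfsg.Agent.Helper1

universe u

/-- In a finite group, an element of `r`-power order of the Fitting subgroup lies in `O_r`. -/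
theorem bgu_mem_sylowCore_of_mem_fitting {Γ : Type u} [Group Γ] [Finite Γ] {r : ℕ} (hr : r.Prime)
    {x : Γ} (hx : x ∈ Cfsg.fittingSubgroup Γ) (hxr : ∃ n, orderOf x = r ^ n) :
    x ∈ Cfsg.Agent.Helper71.sylowCore r Γ := by
  haveI : Fact r.Prime := ⟨hr⟩
  obtain ⟨Q, hQ, hQmem⟩ := Cfsg.Agent.Helper25.exists_pElts_subgroup (Cfsg.fittingSubgroup Γ)
    (Cfsg.Agent.Helper71.fittingSubgroup_isNilpotent Γ) r hr
  have hFn := Cfsg.Agent.Helper71.fittingSubgroup_normal Γ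
  haveI hQn : Q.Normal := by
    constructor
    intro k hk g
    rw [hQmem] at hk ⊢
    exact ⟨hFn.conj_mem k hk.1 g, by rw [Cfsg.Agent.Helper25.orderOf_conj']; exact hk.2⟩
  exact Cfsg.Agent.Helper71.le_sylowCore_of_normal r Q hQ ((hQmem x).mpr ⟨hx, hxr⟩)

/-- For a normal subgroup `Rb` of a finite group, `F(Rb) ≤ F(Γ)`. -/
theorem bgu_fittingOf_le_fittingSubgroup {Γ : Type u} [Group Γ] [Finite Γ] (Rb : Subgroup Γ)
    [hRn : Rb.Normal] : Cfsg.fittingOf Rb ≤ Cfsg.fittingSubgroup Γ := by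
  have hn : (Cfsg.fittingOf Rb).Normal := by
    rw [← Subgroup.normalizer_eq_top_iff]
    apply top_unique
    have h1 : Subgroup.normalizer (Rb : Set Γ) = ⊤ := Subgroup.normalizer_eq_top_iff.mpr hRn
    rw [← h1]
    exact bgu_normalizer_le_normalizer_fittingOf Rb
  exact Cfsg.Agent.Helper71.le_fittingSubgroup _ hn (bgu_fittingOf_isNilpotent Rb)

theorem bgu_quot_trivial {Γ : Type u} [Group Γ] [Finite Γ] (Rb Qb : Subgroup Γ) [hRn : Rb.Normal]
    (hsolv : Group.IsSolvable Rb) (π : Set ℕ)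
    (h1 : ∀ r : ℕ, r.Prime → r ∉ π → ∀ S : Subgroup Γ, S ≤ Rb → S.Normal → IsPGroup r S → S = ⊥)
    (hQ : ∀ r : ℕ, r.Prime → r ∈ π → ∀ S : Subgroup Γ, S ≤ Rb → S.Normal → IsPGroup r S →
        Qb ≤ Subgroup.centralizer (S : Set Γ))
    (hQR : Qb ≤ Rb) (q : ℕ) (hq : q.Prime) (hqπ : q ∉ π) (hQq : IsPGroup q Qb) : Qb = ⊥ := by
  have hSn : ∀ r : ℕ, (Cfsg.Agent.Helper71.sylowCore r Γ ⊓ Rb).Normal := fun r => by
    haveI := Cfsg.Agent.Helper71.sylowCore_normal r Γ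
    infer_instance
  have hSp : ∀ r : ℕ, r.Prime → IsPGroup r ↥(Cfsg.Agent.Helper71.sylowCore r Γ ⊓ Rb) := fun r hr => by
    haveI : Fact r.Prime := ⟨hr⟩
    exact (Cfsg.Agent.Helper71.sylowCore_isPGroup r Γ).to_le inf_le_left
  -- Step A: `Qb` centralizes `Rb ⊓ F(Γ)`
  have hA : ∀ y ∈ Qb, Rb ⊓ Cfsg.fittingSubgroup Γ ≤ Subgroup.centralizer ({y} : Set Γ) := by
    intro y hy
    apply Cfsg.Agent.Helper25.le_of_forall_primePow_mem
    intro c hc r n hr hord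
    have hcS : c ∈ Cfsg.Agent.Helper71.sylowCore r Γ ⊓ Rb :=
      Subgroup.mem_inf.mpr ⟨bgu_mem_sylowCore_of_mem_fitting hr hc.2 ⟨n, hord⟩, hc.1⟩
    rw [Subgroup.mem_centralizer_singleton_iff]
    by_cases hrπ : r ∈ π
    · have h2 := hQ r hr hrπ _ inf_le_right (hSn r) (hSp r hr) hy
      exact Subgroup.mem_centralizer_iff.mp h2 c hcS
    · have h2 := h1 r hr hrπ _ inf_le_right (hSn r) (hSp r hr)
      rw [h2, Subgroup.mem_bot] at hcS
      rw [hcS, one_mul, mul_one]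
  -- Step B: `Qb ≤ F(Γ)`
  have hB : Qb ≤ Cfsg.fittingSubgroup Γ := by
    intro y hy
    haveI := hsolv
    have h2 : (⟨y, hQR hy⟩ : Rb) ∈ Subgroup.centralizer (Cfsg.fittingSubgroup ↥Rb : Set ↥Rb) := by
      rw [Subgroup.mem_centralizer_iff]
      intro f hf
      have hfF : (f : Γ) ∈ Rb ⊓ Cfsg.fittingSubgroup Γ :=
        Subgroup.mem_inf.mpr ⟨f.2, bgu_fittingOf_le_fittingSubgroup Rb ⟨f, hf, rfl⟩⟩
      have h3 := hA y hy hfF
      rw [Subgroup.mem_centralizer_singleton_iff] at h3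
      apply Subtype.ext
      exact h3
    have h4 := Cfsg.Agent.Helper73.centralizer_fittingSubgroup_le (G := ↥Rb) h2
    exact bgu_fittingOf_le_fittingSubgroup Rb ⟨⟨y, hQR hy⟩, h4, rfl⟩
  -- Step C
  have hC : Qb ≤ Cfsg.Agent.Helper71.sylowCore q Γ ⊓ Rb := by
    intro y hy
    haveI : Fact q.Prime := ⟨hq⟩
    refine Subgroup.mem_inf.mpr ⟨?_, hQR hy⟩
    exact bgu_mem_sylowCore_of_mem_fitting hq (hB hy)
      (Cfsg.Agent.Helper25.orderOf_of_mem_isPGroup hQq hy)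
  have h5 := h1 q hq hqπ _ inf_le_right (hSn q) (hSp q hq)
  rw [h5] at hC
  exact le_bot_iff.mp hC

end Cfsg.Agent.Helper1
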