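import Cfsg.Agent.Helper1.BGUniqC
import Cfsg.Agent.Helper1.Tools
import Cfsg.Agent.Helper23.Trans

/-!
# Bender-type uniqueness lemmas (B&G), part D

`bgu_inv_le_piCoreOf`: under the hypotheses of the uniqueness lemma, every `M`-invariant
`q`-subgroup of `R` lies in `O_{π(F)'}(R)`.
-/

set_option autoImplicit false
open scoped Pointwise

namespace Cfsg.Agent.Helper1

universe u

open scoped commutatorElement

variable {G : Type u} [Group G]

theorem bguZ_le_of_self_centralizing {F M : Subgroup G} (hM : M ≤ F)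
    (hCM : F ⊓ Subgroup.centralizer (M : Set G) ≤ M) (p : ℕ) : bguZ F p ≤ M := by
  intro z hz
  apply hCM
  refine Subgroup.mem_inf.mpr ⟨hz.1, ?_⟩
  rw [Subgroup.mem_centralizer_iff]
  intro m hm
  exact ((hz.2.1 m (hM hm)).eq).symm

theorem bgu_normalizer_le_normalizer_piCoreOf [Finite G] (π : Set ℕ) (R : Subgroup G) :
    Subgroup.normalizer (R : Set G) ≤ Subgroup.normalizer (Cfsg.piCoreOf π R : Set G) := by
  intro g hg
  rw [Cfsg.Agent.Helper35.mem_normalizer_iff_conj_smul_eq]
  have hgR : MulAut.conj g • R = R := Cfsg.Agent.Helper35.conj_smul_eq_self_of_mem_normalizer hg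
  have hle : MulAut.conj g • Cfsg.piCoreOf π R ≤ Cfsg.piCoreOf π R := by
    apply Cfsg.Agent.Helper23.le_piCoreOf
    · have := Cfsg.Agent.Helper35.conj_smul_le_conj_smul (g := g)
        (Cfsg.Agent.Helper23.piCoreOf_le π R)
      rwa [hgR] at this
    · have := Cfsg.Agent.Helper35.conj_smul_le_normalizer
        (Cfsg.Agent.Helper23.le_normalizer_piCoreOf π R) g
      rwa [hgR] at this
    · intro p hp hdvd
      rw [Cfsg.Agent.Helper35.card_conj_smul] at hdvd
      exact Cfsg.Agent.Helper23.mem_of_dvd_card_piCoreOf π R hp hdvd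
  exact Subgroup.eq_of_le_of_card_ge hle (by rw [Cfsg.Agent.Helper35.card_conj_smul])

/-- The full preimage in `G` of a subgroup of the quotient `N ⧸ Kn`. -/
def bguPre {N : Subgroup G} (Kn : Subgroup N) [Kn.Normal] (S : Subgroup (N ⧸ Kn)) : Subgroup G :=
  (S.comap (QuotientGroup.mk' Kn)).map N.subtype

theorem bguPre_mem {N : Subgroup G} (Kn : Subgroup N) [Kn.Normal] (S : Subgroup (N ⧸ Kn)) {g : G} :
    g ∈ bguPre Kn S ↔ ∃ hg : g ∈ N, QuotientGroup.mk' Kn ⟨g, hg⟩ ∈ S := by
  constructor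
  · rintro ⟨x, hx, rfl⟩
    exact ⟨x.2, hx⟩
  · rintro ⟨hg, h⟩
    exact ⟨⟨g, hg⟩, h, rfl⟩

theorem bguPre_le {N : Subgroup G} (Kn : Subgroup N) [Kn.Normal] (S : Subgroup (N ⧸ Kn)) :
    bguPre Kn S ≤ N := Subgroup.map_subtype_le _

theorem bguPre_normalizer {N : Subgroup G} (Kn : Subgroup N) [Kn.Normal] (S : Subgroup (N ⧸ Kn))
    [hS : S.Normal] : N ≤ Subgroup.normalizer (bguPre Kn S : Set G) := by
  rw [Subgroup.le_normalizer_iff]
  intro n hn g hg
  rw [bguPre_mem] at hg ⊢
  obtain ⟨hgN, hgS⟩ := hg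
  refine ⟨N.mul_mem (N.mul_mem hn hgN) (N.inv_mem hn), ?_⟩
  have e : (⟨n * g * n⁻¹, N.mul_mem (N.mul_mem hn hgN) (N.inv_mem hn)⟩ : N) =
      ⟨n, hn⟩ * ⟨g, hgN⟩ * ⟨n, hn⟩⁻¹ := rfl
  rw [e, map_mul, map_mul, map_inv]
  exact hS.conj_mem _ hgS _

theorem bguPre_card [Finite G] {N : Subgroup G} (Kn : Subgroup N) [Kn.Normal]
    (S : Subgroup (N ⧸ Kn)) : Nat.card (bguPre Kn S) = Nat.card S * Nat.card Kn := by
  unfold bguPre
  rw [Subgroup.card_map_of_injective N.subtype_injective]
  exact Cfsg.Agent.Helper1.card_comap_mk' Kn S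

theorem bgu_inv_le_piCoreOf [Finite G] {H M R : Subgroup G}
    (hloc : ∀ p : ℕ, p.Prime → p ∣ Nat.card (Cfsg.fittingOf H) →
      Subgroup.centralizer (bguZ (Cfsg.fittingOf H) p : Set G) ≤ H)
    (hF2 : ∀ r : ℕ, ∃ p : ℕ, p.Prime ∧ p ∣ Nat.card (Cfsg.fittingOf H) ∧ p ≠ r)
    (hM : M ≤ Cfsg.fittingOf H)
    (hCM : Cfsg.fittingOf H ⊓ Subgroup.centralizer (M : Set G) ≤ M)
    (hR : Group.IsSolvable R) (hMR : M ≤ Subgroup.normalizer (R : Set G))
    (hXR : H ⊓ Subgroup.centralizer (Cfsg.fittingOf H : Set G) ≤ Subgroup.normalizer (R : Set G))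
    {q : ℕ} (hq : q.Prime) (hqF : ¬ q ∣ Nat.card (Cfsg.fittingOf H))
    {Q : Subgroup G} (hQR : Q ≤ R) (hQq : IsPGroup q Q)
    (hMQ : M ≤ Subgroup.normalizer (Q : Set G)) :
    Q ≤ Cfsg.piCoreOf (Cfsg.primesNotDvd (Nat.card (Cfsg.fittingOf H))) R := by
  classical
  set F := Cfsg.fittingOf H with hFdef
  set K := Cfsg.piCoreOf (Cfsg.primesNotDvd (Nat.card F)) R with hKdef
  set N := Subgroup.normalizer (R : Set G) with hNdef
  have hKR : K ≤ R := Cfsg.Agent.Helper23.piCoreOf_le _ R
  have hRN : R ≤ N := Subgroup.le_normalizer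
  have hNK : N ≤ Subgroup.normalizer (K : Set G) := bgu_normalizer_le_normalizer_piCoreOf _ R
  have hKN : K ≤ N := hKR.trans hRN
  haveI hKn : (K.subgroupOf N).Normal := Subgroup.normal_subgroupOf_of_le_normalizer hNK
  let φ : N →* N ⧸ K.subgroupOf N := QuotientGroup.mk' (K.subgroupOf N)
  have hφ1 : ∀ x : N, φ x = 1 ↔ (x : G) ∈ K := by
    intro x
    show QuotientGroup.mk' (K.subgroupOf N) x = 1 ↔ _
    rw [QuotientGroup.mk'_apply, QuotientGroup.eq_one_iff, Subgroup.mem_subgroupOf]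
  have hφsurj : Function.Surjective φ := QuotientGroup.mk'_surjective _
  have hKprime : ∀ p : ℕ, p.Prime → p ∣ Nat.card F → ¬ p ∣ Nat.card K := by
    intro p hp hpF hpK
    exact (Cfsg.Agent.Helper23.mem_of_dvd_card_piCoreOf _ R hp hpK).2 hpF
  have hFH : F ≤ H := bgu_fittingOf_le H
  have hMH : M ≤ H := hM.trans hFH
  have hMN : M ≤ N := hMR
  have hZM : ∀ p : ℕ, bguZ F p ≤ M := fun p => bguZ_le_of_self_centralizing hM hCM p
  have hMZ : ∀ p : ℕ, M ≤ Subgroup.normalizer (bguZ F p : Set G) := fun p =>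
    (hMH.trans (bgu_le_normalizer_fittingOf H)).trans (bguZ_normalizer F p)
  have hMCZ : ∀ p : ℕ, M ≤ Subgroup.normalizer
      ((Subgroup.centralizer (bguZ F p : Set G) : Subgroup G) : Set G) := fun p =>
    (hMZ p).trans (Cfsg.Agent.Helper49.normalizer_le_normalizer_centralizer _)
  set Rb : Subgroup (N ⧸ K.subgroupOf N) := (R.subgroupOf N).map φ with hRbdef
  set Qb : Subgroup (N ⧸ K.subgroupOf N) := (Q.subgroupOf N).map φ with hQbdef
  haveI hRbn : Rb.Normal :=
    Subgroup.Normal.map (Subgroup.normal_subgroupOf_of_le_normalizer (le_refl N)) φ hφsurj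
  have hRbsolv : Group.IsSolvable Rb := by
    haveI := Cfsg.Agent.Helper35.isSolvable_subgroupOf_of_le hRN hR
    exact Group.isSolvable_of_surjective (MonoidHom.subgroupMap_surjective φ (R.subgroupOf N))
  have hQbRb : Qb ≤ Rb := by
    apply Subgroup.map_mono
    intro y hy
    rw [Subgroup.mem_subgroupOf] at hy ⊢
    exact hQR hy
  have hQbq : IsPGroup q Qb := (hQq.comap_subtype).map φ
  have hRbmem : ∀ x : N, φ x ∈ Rb → (x : G) ∈ R := by
    rintro x ⟨y, hy, hyx⟩
    rw [SetLike.mem_coe, Subgroup.mem_subgroupOf] at hy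
    have h1 : φ (y⁻¹ * x) = 1 := by rw [map_mul, map_inv, hyx, inv_mul_cancel]
    rw [hφ1] at h1
    have h2 : ((y⁻¹ * x : N) : G) ∈ R := hKR h1
    have h3 : (x : G) = (y : G) * ((y⁻¹ * x : N) : G) := by
      simp
    rw [h3]
    exact R.mul_mem hy h2
  have key : Qb = ⊥ := by
    apply bgu_quot_trivial Rb Qb hRbsolv {p | p ∣ Nat.card F} ?_ ?_ hQbRb q hq hqF hQbq
    · -- (h1)
      intro r hr hrπ S hSR hSn hSr
      haveI := hSn
      haveI : Fact r.Prime := ⟨hr⟩
      have hrF : ¬ r ∣ Nat.card F := hrπ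
      have hLK : bguPre (K.subgroupOf N) S ≤ K := by
        apply Cfsg.Agent.Helper23.le_piCoreOf
        · intro g hg
          rw [bguPre_mem] at hg
          obtain ⟨hgN, hgS⟩ := hg
          exact hRbmem ⟨g, hgN⟩ (hSR hgS)
        · exact hRN.trans (bguPre_normalizer _ S)
        · intro p hp hdvd
          rw [bguPre_card, Cfsg.Agent.Helper1.card_subgroupOf_of_le hKN] at hdvd
          rcases (Nat.Prime.dvd_mul hp).mp hdvd with h | h
          · obtain ⟨k, hk⟩ := IsPGroup.iff_card.mp hSr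
            rw [hk] at h
            have : p = r := (Nat.prime_dvd_prime_iff_eq hp hr).mp (hp.dvd_of_dvd_pow h)
            subst this
            exact ⟨hp, hrF⟩
          · exact Cfsg.Agent.Helper23.mem_of_dvd_card_piCoreOf _ R hp h
      rw [eq_bot_iff]
      intro s hs
      obtain ⟨x, rfl⟩ := hφsurj s
      rw [Subgroup.mem_bot, hφ1]
      exact hLK ((bguPre_mem _ S).mpr ⟨x.2, hs⟩)
    · -- (hQ)
      intro r hr hrF S hSR hSn hSr
      haveI := hSn
      haveI : Fact r.Prime := ⟨hr⟩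
      haveI : Fact q.Prime := ⟨hq⟩
      have hrF' : r ∣ Nat.card F := hrF
      obtain ⟨p, hp, hpF, hpr⟩ := hF2 r
      haveI : Fact p.Prime := ⟨hp⟩
      have hpq : p ≠ q := fun h => hqF (h ▸ hpF)
      -- (i) the image of `Z_p` centralizes `S`
      have hZS : ∀ x ∈ bguZ F p, ∀ hx : x ∈ N,
          φ ⟨x, hx⟩ ∈ Subgroup.centralizer (S : Set (N ⧸ K.subgroupOf N)) := by
        intro x hxZ hxN
        have hZrp : IsPGroup r (((bguZ F r).subgroupOf N).map φ) :=
          ((bguZ_isPGroup F r).comap_subtype).map φ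
        apply Cfsg.Agent.Helper49.mem_centralizer_of_commute_fixedPoints hSn hSr hZrp
        · rw [Subgroup.mem_centralizer_iff]
          rintro _ ⟨z, hz, rfl⟩
          rw [SetLike.mem_coe, Subgroup.mem_subgroupOf] at hz
          have hcomm : x * (z : G) = (z : G) * x := (hxZ.2.1 _ hz.1).eq
          rw [← map_mul, ← map_mul]
          congr 1
          apply Subtype.ext
          exact hcomm.symm
        · have h1 : orderOf (φ ⟨x, hxN⟩) ∣ p := by
            refine dvd_trans (orderOf_map_dvd φ _) ?_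
            rw [Subgroup.orderOf_mk]
            exact orderOf_dvd_of_pow_eq_one hxZ.2.2
          exact Nat.Coprime.coprime_dvd_left h1 ((Nat.coprime_primes hp hr).mpr hpr)
        · intro u huS hucent
          obtain ⟨u', rfl⟩ := hφsurj u
          have hu'R : (u' : G) ∈ R := hRbmem u' (hSR huS)
          have hcoset : ∀ a ∈ bguZ F r, (u' : G)⁻¹ * a * (u' : G) * a⁻¹ ∈ K := by
            intro a ha
            have haN : a ∈ N := hMN (hZM r ha)
            have h2 := Subgroup.mem_centralizer_iff.mp hucent (φ ⟨a, haN⟩)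
              ⟨⟨a, haN⟩, by rw [SetLike.mem_coe, Subgroup.mem_subgroupOf]; exact ha, rfl⟩
            have h3 : φ (u'⁻¹ * ⟨a, haN⟩ * u' * ⟨a, haN⟩⁻¹) = 1 := by
              rw [map_mul, map_mul, map_mul, map_inv, map_inv, mul_assoc (φ u')⁻¹, h2,
                ← mul_assoc, inv_mul_cancel, one_mul, mul_inv_cancel]
            rw [hφ1] at h3
            exact h3
          have hZrK : bguZ F r ≤ Subgroup.normalizer (K : Set G) :=
            ((hZM r).trans hMN).trans hNK
          have hcop : (Nat.card (bguZ F r)).Coprime (Nat.card K) := by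
            obtain ⟨k, hk⟩ := IsPGroup.iff_card.mp (bguZ_isPGroup F r)
            rw [hk]
            apply Nat.Coprime.pow_left
            rw [Nat.Prime.coprime_iff_not_dvd hr]
            exact hKprime r hr hrF'
          obtain ⟨c, hcZ, hcK⟩ := Cfsg.Agent.Helper35.exists_fixed_in_coset hZrK hcop
            (Or.inr (Cfsg.Agent.Helper35.isSolvable_of_le hKR hR)) (u' : G) hcoset
          have hcR : c ∈ R := by
            have e : c = (u' : G) * ((u' : G)⁻¹ * c) := by group
            rw [e]; exact R.mul_mem hu'R (hKR hcK)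
          have hcN : c ∈ N := hRN hcR
          have hφc : φ ⟨c, hcN⟩ = φ u' := by
            have h4 : φ (u'⁻¹ * ⟨c, hcN⟩) = 1 := by rw [hφ1]; exact hcK
            rw [map_mul, map_inv] at h4
            exact (inv_mul_eq_one.mp h4).symm
          have hxc : x ∈ Subgroup.centralizer
              ((bguPre (K.subgroupOf N) S ⊓ Subgroup.centralizer (bguZ F r : Set G) :
                Subgroup G) : Set G) := by
            apply bgu_E (H := H) (M := M) (p := p) ?_ ?_ hp ?_ (hZM p hxZ) hxZ.1 ?_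
            · exact inf_le_right.trans (hloc r hr hrF')
            · refine le_trans ?_ Subgroup.inf_normalizer_le_normalizer_inf
              exact le_inf (hMN.trans (bguPre_normalizer _ S)) (hMCZ r)
            · rintro c₀ hc₀ ⟨k, hk⟩
              obtain ⟨hc₀N, hc₀S⟩ := (bguPre_mem _ S).mp hc₀.1
              have h5 : φ ⟨c₀, hc₀N⟩ = 1 := by
                have h6 : φ ⟨c₀, hc₀N⟩ ^ p ^ k = 1 := by
                  rw [← map_pow, hφ1]
                  show c₀ ^ p ^ k ∈ K
                  rw [hk]; exact K.one_mem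
                obtain ⟨j, hj⟩ := Cfsg.Agent.Helper49.pow_eq_one_of_mem_isPGroup hSr hc₀S
                have h7 : orderOf (φ ⟨c₀, hc₀N⟩) = 1 :=
                  Nat.eq_one_of_dvd_coprimes
                    (Nat.Coprime.pow k j ((Nat.coprime_primes hp hr).mpr hpr))
                    (orderOf_dvd_of_pow_eq_one h6) (orderOf_dvd_of_pow_eq_one hj)
                exact orderOf_eq_one_iff.mp h7
              rw [hφ1] at h5
              exact bgu_no_pElt hp (hKprime p hp hpF) c₀ h5 ⟨k, hk⟩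
            · rcases (Nat.dvd_prime hp).mp (orderOf_dvd_of_pow_eq_one hxZ.2.2) with h | h
              · exact ⟨0, by rw [h, pow_zero]⟩
              · exact ⟨1, by rw [h, pow_one]⟩
          have h6 := Subgroup.mem_centralizer_iff.mp hxc c
            (Subgroup.mem_inf.mpr ⟨(bguPre_mem _ S).mpr ⟨hcN, by rw [hφc]; exact huS⟩, hcZ⟩)
          show φ ⟨x, hxN⟩ * φ u' = φ u' * φ ⟨x, hxN⟩
          rw [← hφc, ← map_mul, ← map_mul]
          congr 1
          apply Subtype.ext
          exact h6.symm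
      haveI hCSn : (Subgroup.centralizer (S : Set (N ⧸ K.subgroupOf N))).Normal :=
        Subgroup.normal_centralizer
      have hZD : bguZ F p ≤
          bguPre (K.subgroupOf N) (Subgroup.centralizer (S : Set (N ⧸ K.subgroupOf N))) := by
        intro x hx
        exact (bguPre_mem _ _).mpr ⟨hMN (hZM p hx), hZS x hx _⟩
      have hcomm : (⁅Q, bguZ F p⁆ : Subgroup G) ≤
          bguPre (K.subgroupOf N) (Subgroup.centralizer (S : Set (N ⧸ K.subgroupOf N))) := by
        rw [Subgroup.commutator_le]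
        intro a ha b hb
        have haN : a ∈ N := hRN (hQR ha)
        have h1 : a * b * a⁻¹ ∈
            bguPre (K.subgroupOf N) (Subgroup.centralizer (S : Set (N ⧸ K.subgroupOf N))) :=
          (Subgroup.mem_normalizer_iff.mp (bguPre_normalizer _ _ haN) b).mp (hZD hb)
        rw [commutatorElement_def]
        exact Subgroup.mul_mem _ h1 (Subgroup.inv_mem _ (hZD hb))
      have hQZ : Q ⊓ Subgroup.centralizer (bguZ F p : Set G) = ⊥ := by
        apply bgu_N3 hM hCM hR hXR (inf_le_right.trans (hloc p hp hpF)) (inf_le_left.trans hQR)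
        · refine le_trans ?_ Subgroup.inf_normalizer_le_normalizer_inf
          exact le_inf hMQ (hMCZ p)
        · intro p' hp' hdvd hp'F
          have h1 : p' ∣ Nat.card Q := dvd_trans hdvd (Subgroup.card_dvd_of_le inf_le_left)
          obtain ⟨k, hk⟩ := IsPGroup.iff_card.mp hQq
          rw [hk] at h1
          have : p' = q := (Nat.prime_dvd_prime_iff_eq hp' hq).mp (hp'.dvd_of_dvd_pow h1)
          exact hqF (this ▸ hp'F)
      have hZQ : bguZ F p ≤ Subgroup.normalizer (Q : Set G) := (hZM p).trans hMQ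
      have hcopQ : (Nat.card (bguZ F p)).Coprime (Nat.card Q) := by
        obtain ⟨k, hk⟩ := IsPGroup.iff_card.mp (bguZ_isPGroup F p)
        obtain ⟨j, hj⟩ := IsPGroup.iff_card.mp hQq
        rw [hk, hj]
        exact Nat.Coprime.pow _ _ ((Nat.coprime_primes hp hq).mpr hpq)
      rintro _ ⟨y, hy, rfl⟩
      rw [SetLike.mem_coe, Subgroup.mem_subgroupOf] at hy
      obtain ⟨n, hn, c, hc, hyc⟩ := Cfsg.Agent.Helper35.exists_commutator_mul_fixed hZQ hcopQ
        (Or.inr (Cfsg.Agent.Helper35.isSolvable_of_le hQR hR)) hy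
      rw [hQZ, Subgroup.mem_bot] at hc
      rw [hc, mul_one] at hyc
      have h7 := hcomm (hyc ▸ hn)
      obtain ⟨hyN, hyS⟩ := (bguPre_mem _ _).mp h7
      exact hyS
  intro y hy
  have hyN : y ∈ N := hRN (hQR hy)
  have h1 : φ ⟨y, hyN⟩ ∈ Qb :=
    ⟨⟨y, hyN⟩, by rw [SetLike.mem_coe, Subgroup.mem_subgroupOf]; exact hy, rfl⟩
  rw [key, Subgroup.mem_bot, hφ1] at h1
  exact h1

end Cfsg.Agent.Helper1
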