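import Cfsg.Agent.Helper1.BGUniqD
import Cfsg.Agent.Helper1.CNSolv
import Cfsg.Agent.Helper24.PStable

/-!
# Bender-type uniqueness lemmas (B&G), part E

Tools for the uniqueness theorem for a subgroup `A ≤ F(H)` containing `Z(F(H))`:

* `bgu_S1`: an `A`-invariant `r`-subgroup is centralized by the `p`-elements of `A`, `p ≠ r`;
* `bgu_centralizer_fittingOf_le`: `C_L(F(L)) ≤ F(L)` for solvable `L`;
* `bgu_pstable_mem_fittingOf`: in a solvable subgroup `L` of odd order, an element centralizing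
  the `p'`-elements of `F(L)` and acting quadratically on the `p`-elements of `F(L)` lies in `F(L)`;
* `bgu_le_fittingOf_chain`: a nilpotent subgroup normal in a normal subgroup of `H` lies in `F(H)`;
* `bgu_normalizer_eq_of_coatom`.
-/

set_option autoImplicit false
open scoped Pointwise

namespace Cfsg.Agent.Helper1

universe u

open scoped commutatorElement

variable {G : Type u} [Group G]

/-- An `A`-invariant `r`-subgroup `S` is centralized by every `p`-element of `A` (`p ≠ r`),
provided `A ≤ F(H)` and `C_G(Z_r) ≤ H`. -/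
theorem bgu_S1 [Finite G] {H A S : Subgroup G} (hA : A ≤ Cfsg.fittingOf H) {r : ℕ} (hr : r.Prime)
    (hloc : Subgroup.centralizer (bguZ (Cfsg.fittingOf H) r : Set G) ≤ H)
    (hZA : bguZ (Cfsg.fittingOf H) r ≤ A)
    (hS : IsPGroup r S) (hAS : A ≤ Subgroup.normalizer (S : Set G))
    {p : ℕ} (hp : p.Prime) (hpr : p ≠ r) {x : G} (hxA : x ∈ A) (hx : ∃ n, orderOf x = p ^ n) :
    x ∈ Subgroup.centralizer (S : Set G) := by
  haveI : Fact r.Prime := ⟨hr⟩
  have hxN : x ∈ Subgroup.normalizer (S : Set G) := hAS hxA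
  have hPn : (S.subgroupOf (Subgroup.normalizer (S : Set G))).Normal :=
    Subgroup.normal_subgroupOf_of_le_normalizer le_rfl
  have hPp : IsPGroup r (S.subgroupOf (Subgroup.normalizer (S : Set G))) := hS.comap_subtype
  have hQp : IsPGroup r ((bguZ (Cfsg.fittingOf H) r).subgroupOf (Subgroup.normalizer (S : Set G))) :=
    (bguZ_isPGroup _ r).comap_subtype
  have hxQ : (⟨x, hxN⟩ : Subgroup.normalizer (S : Set G)) ∈ Subgroup.centralizer
      (((bguZ (Cfsg.fittingOf H) r).subgroupOf (Subgroup.normalizer (S : Set G)) :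
        Subgroup (Subgroup.normalizer (S : Set G))) : Set (Subgroup.normalizer (S : Set G))) := by
    rw [Subgroup.mem_centralizer_iff]
    intro h hh
    rw [SetLike.mem_coe, Subgroup.mem_subgroupOf] at hh
    apply Subtype.ext
    exact (hh.2.1 x (hA hxA)).eq
  have hxo : (orderOf (⟨x, hxN⟩ : Subgroup.normalizer (S : Set G))).Coprime r := by
    rw [Subgroup.orderOf_mk]
    obtain ⟨n, hn⟩ := hx
    rw [hn]
    exact Nat.Coprime.pow_left _ ((Nat.coprime_primes hp hr).mpr hpr)
  have hMZ : A ≤ Subgroup.normalizer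
      ((Subgroup.centralizer (bguZ (Cfsg.fittingOf H) r : Set G) : Subgroup G) : Set G) := by
    refine le_trans ?_ (Cfsg.Agent.Helper49.normalizer_le_normalizer_centralizer _)
    exact ((hA.trans (bgu_fittingOf_le H)).trans (bgu_le_normalizer_fittingOf H)).trans
      (bguZ_normalizer _ r)
  have hxC : x ∈ Subgroup.centralizer
      ((S ⊓ Subgroup.centralizer (bguZ (Cfsg.fittingOf H) r : Set G) : Subgroup G) : Set G) := by
    apply bgu_E (H := H) (M := A) (p := p) (inf_le_right.trans hloc) ?_ hp ?_ hxA (hA hxA) hx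
    · refine le_trans ?_ Subgroup.inf_normalizer_le_normalizer_inf
      exact le_inf hAS hMZ
    · rintro c hc ⟨k, hk⟩
      obtain ⟨j, hj⟩ := Cfsg.Agent.Helper49.pow_eq_one_of_mem_isPGroup hS hc.1
      have h7 : orderOf c = 1 :=
        Nat.eq_one_of_dvd_coprimes (Nat.Coprime.pow k j ((Nat.coprime_primes hp hr).mpr hpr))
          (orderOf_dvd_of_pow_eq_one hk) (orderOf_dvd_of_pow_eq_one hj)
      exact orderOf_eq_one_iff.mp h7
  have hfix : ∀ u ∈ S.subgroupOf (Subgroup.normalizer (S : Set G)),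
      u ∈ Subgroup.centralizer
        (((bguZ (Cfsg.fittingOf H) r).subgroupOf (Subgroup.normalizer (S : Set G)) :
          Subgroup (Subgroup.normalizer (S : Set G))) : Set (Subgroup.normalizer (S : Set G))) →
      Commute (⟨x, hxN⟩ : Subgroup.normalizer (S : Set G)) u := by
    intro u hu hucent
    rw [Subgroup.mem_subgroupOf] at hu
    have huZ : (u : G) ∈ Subgroup.centralizer (bguZ (Cfsg.fittingOf H) r : Set G) := by
      rw [Subgroup.mem_centralizer_iff]
      intro z hz
      have hzN : z ∈ Subgroup.normalizer (S : Set G) := hAS (hZA hz)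
      have h3 := Subgroup.mem_centralizer_iff.mp hucent ⟨z, hzN⟩
        (by rw [SetLike.mem_coe, Subgroup.mem_subgroupOf]; exact hz)
      exact congrArg Subtype.val h3
    have h1 := Subgroup.mem_centralizer_iff.mp hxC (u : G) (Subgroup.mem_inf.mpr ⟨hu, huZ⟩)
    show (⟨x, hxN⟩ : Subgroup.normalizer (S : Set G)) * u = u * ⟨x, hxN⟩
    apply Subtype.ext
    exact h1.symm
  have hcent := Cfsg.Agent.Helper49.mem_centralizer_of_commute_fixedPoints hPn hPp hQp hxQ hxo hfix
  rw [Subgroup.mem_centralizer_iff]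
  intro s hs
  have h2 := Subgroup.mem_centralizer_iff.mp hcent ⟨s, Subgroup.le_normalizer hs⟩
    (by rw [SetLike.mem_coe, Subgroup.mem_subgroupOf]; exact hs)
  exact congrArg Subtype.val h2

/-- `C_L(F(L)) ≤ F(L)` for a solvable subgroup `L`. -/
theorem bgu_centralizer_fittingOf_le [Finite G] {L : Subgroup G} (hL : Group.IsSolvable L) :
    L ⊓ Subgroup.centralizer (Cfsg.fittingOf L : Set G) ≤ Cfsg.fittingOf L := by
  haveI := hL
  intro x hx
  have hxL : x ∈ L := hx.1
  have hxc := hx.2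
  have h1 : (⟨x, hxL⟩ : L) ∈ Subgroup.centralizer (Cfsg.fittingSubgroup ↥L : Set ↥L) := by
    rw [Subgroup.mem_centralizer_iff]
    intro y hy
    apply Subtype.ext
    exact Subgroup.mem_centralizer_iff.mp hxc (y : G) ⟨y, hy, rfl⟩
  exact ⟨⟨x, hxL⟩, Cfsg.Agent.Helper73.centralizer_fittingSubgroup_le h1, rfl⟩

/-- A nilpotent subgroup normal in a normal subgroup `C` of `H` lies in `F(H)`. -/
theorem bgu_le_fittingOf_chain [Finite G] {H C U : Subgroup G} (hUC : U ≤ C)
    (hCU : C ≤ Subgroup.normalizer (U : Set G)) (hnil : Group.IsNilpotent U) (hCH : C ≤ H)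
    (hHC : H ≤ Subgroup.normalizer (C : Set G)) : U ≤ Cfsg.fittingOf H := by
  refine (bgu_le_fittingOf hUC hCU hnil).trans ?_
  exact bgu_le_fittingOf ((bgu_fittingOf_le C).trans hCH)
    (hHC.trans (bgu_normalizer_le_normalizer_fittingOf C)) (bgu_fittingOf_isNilpotent C)

/-- In a simple group, a maximal subgroup normalizing a nontrivial subgroup of itself is its full
normalizer. -/
theorem bgu_coatom_normalizer_eq [IsSimpleGroup G] {X U : Subgroup G} (hX : IsCoatom X)
    (hU : U ≠ ⊥) (hUX : U ≤ X) (hXN : X ≤ Subgroup.normalizer (U : Set G)) :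
    Subgroup.normalizer (U : Set G) = X := by
  rcases hX.le_iff.mp hXN with h | h
  · exfalso
    have hn : U.Normal := Subgroup.normalizer_eq_top_iff.mp h
    rcases hn.eq_bot_or_eq_top with h1 | h1
    · exact hU h1
    · exact hX.1 (top_le_iff.mp (h1 ▸ hUX))
  · exact h

/-- The subgroup generated by the `p`-elements of `N`. -/
def bguP (N : Subgroup G) (p : ℕ) : Subgroup G :=
  Subgroup.closure {k | k ∈ N ∧ ∃ n, orderOf k = p ^ n}

theorem bguP_le (N : Subgroup G) (p : ℕ) : bguP N p ≤ N :=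
  (Subgroup.closure_le N).mpr (fun _ hk => hk.1)

theorem bguP_spec [Finite G] {N : Subgroup G} (hN : Group.IsNilpotent N) {p : ℕ} (hp : p.Prime) :
    IsPGroup p (bguP N p) ∧ ∀ k, k ∈ bguP N p ↔ (k ∈ N ∧ ∃ n, orderOf k = p ^ n) := by
  obtain ⟨Q, hQ, hmem⟩ := Cfsg.Agent.Helper25.exists_pElts_subgroup N hN p hp
  have h1 : {k | k ∈ N ∧ ∃ n, orderOf k = p ^ n} = (Q : Set G) :=
    Set.ext (fun k => (hmem k).symm)
  have h2 : bguP N p = Q := by
    unfold bguP
    rw [h1, Subgroup.closure_eq]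
  rw [h2]
  exact ⟨hQ, hmem⟩

theorem bguP_normalizer [Finite G] {N : Subgroup G} (hN : Group.IsNilpotent N) {p : ℕ}
    (hp : p.Prime) :
    Subgroup.normalizer (N : Set G) ≤ Subgroup.normalizer (bguP N p : Set G) := by
  rw [Subgroup.le_normalizer_iff]
  intro g hg k hk
  rw [(bguP_spec hN hp).2] at hk ⊢
  refine ⟨?_, ?_⟩
  · exact (Subgroup.mem_normalizer_iff.mp hg k).mp hk.1
  · obtain ⟨n, hn⟩ := hk.2
    exact ⟨n, by rw [← hn]; exact Cfsg.Agent.Helper25.orderOf_conj' g k⟩

theorem bguZ_le_bguP [Finite G] {N : Subgroup G} (hN : Group.IsNilpotent N) {p : ℕ}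
    (hp : p.Prime) : bguZ N p ≤ bguP N p := by
  intro z hz
  rw [(bguP_spec hN hp).2]
  refine ⟨bguZ_le N p hz, ?_⟩
  have h1 : z ^ p = 1 := (bguZ_mem.mp hz).2.2
  have h2 : orderOf z ∣ p := orderOf_dvd_of_pow_eq_one h1
  rcases (Nat.dvd_prime hp).mp h2 with h | h
  · exact ⟨0, by rw [h, pow_zero]⟩
  · exact ⟨1, by rw [h, pow_one]⟩

/-- Normalizers grow: if `P`, `Q` are `p`-subgroups, `Q` normalizes `P` and `P ∩ N(Q) ≤ Q`, then
`P ≤ Q`. -/
theorem bgu_le_of_inf_normalizer_le [Finite G] {p : ℕ} (hp : p.Prime) {P Q : Subgroup G}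
    (hP : IsPGroup p P) (hQ : IsPGroup p Q) (hQP : Q ≤ Subgroup.normalizer (P : Set G))
    (h : P ⊓ Subgroup.normalizer (Q : Set G) ≤ Q) : P ≤ Q := by
  haveI : Fact p.Prime := ⟨hp⟩
  have hR : IsPGroup p (P ⊔ Q : Subgroup G) := hP.to_sup_of_normal_left' hQ hQP
  by_contra hcon
  have hne : Q ≠ P ⊔ Q := fun h' => hcon (by rw [h']; exact le_sup_left)
  obtain ⟨t, htR, htN, htQ⟩ :=
    Cfsg.Agent.Helper49.exists_mem_normalizer_not_mem hR le_sup_right hne
  obtain ⟨f, hf, d, hd, rfl⟩ :=
    Cfsg.Agent.Helper35.exists_mul_of_mem_sup_of_le_normalizer hQP htR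
  apply htQ
  have hfN : f ∈ Subgroup.normalizer (Q : Set G) := by
    have := (Subgroup.normalizer (Q : Set G)).mul_mem htN
      ((Subgroup.normalizer (Q : Set G)).inv_mem (Subgroup.le_normalizer hd))
    simpa using this
  exact Q.mul_mem (h ⟨hf, hfN⟩) hd

/-- If `z` commutes with the elements of prime power order `q ^ n`, `q ≠ p`, of `D`, then it
commutes with every element of `D` of order prime to `p`. -/
theorem bgu_commute_of_coprime [Finite G] {D : Subgroup G} {p : ℕ} {z : G}
    (h : ∀ c ∈ D, ∀ q n : ℕ, q.Prime → q ≠ p → orderOf c = q ^ n → Commute z c) {d : G}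
    (hd : d ∈ D) (hdo : (orderOf d).Coprime p) : Commute z d := by
  have h1 : Subgroup.zpowers d ≤ Subgroup.centralizer ({z} : Set G) := by
    apply Cfsg.Agent.Helper25.le_of_forall_primePow_mem
    intro c hc q n hq hcq
    rw [Subgroup.mem_centralizer_iff]
    intro y hy
    rw [Set.mem_singleton_iff] at hy
    subst hy
    by_cases hn : n = 0
    · have hc1 : c = 1 := by rw [← orderOf_eq_one_iff, hcq, hn, pow_zero]
      rw [hc1]; simp
    · have hqp : q ≠ p := by
        rintro rfl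
        have h2 : q ∣ orderOf c := by rw [hcq]; exact dvd_pow_self q hn
        have h3 : orderOf c ∣ orderOf d := orderOf_dvd_of_mem_zpowers hc
        have h4 : q ∣ Nat.gcd (orderOf d) q := Nat.dvd_gcd (h2.trans h3) dvd_rfl
        rw [Nat.Coprime] at hdo
        rw [hdo] at h4
        exact hq.one_lt.ne' (Nat.dvd_one.mp h4)
      exact (h c ((Subgroup.zpowers_le.mpr hd) hc) q n hq hqp hcq).eq
  exact Subgroup.mem_centralizer_iff.mp (h1 (Subgroup.mem_zpowers d)) z rfl

end Cfsg.Agent.Helper1
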