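import Cfsg.Agent.Helper1.BGUniqE

/-!
# Bender-type uniqueness lemmas (B&G), part F: a `p`-stability criterion

`bgu_pstable_mem_fittingOf`: in a solvable subgroup `L` of odd order, an element of `L` centralizing
the `p'`-elements of `F(L)` and acting quadratically on the `p`-elements of `F(L)` lies in `F(L)`.
-/

set_option autoImplicit false
open scoped Pointwise

namespace Cfsg.Agent.Helper1

universe u

open scoped commutatorElement

variable {G : Type u} [Group G]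

/-- In a solvable group `X` of odd order, an element centralizing the `p'`-elements of `F(X)` and
acting quadratically on the `p`-elements of `F(X)` lies in `F(X)`. -/
theorem bgu_pstable_mem_fittingSubgroup {X : Type u} [Group X] [Finite X] [Group.IsSolvable X]
    (hodd : Odd (Nat.card X)) {p : ℕ} (hp : p.Prime) {a : X}
    (hz1 : ∀ d ∈ Cfsg.fittingSubgroup X, (orderOf d).Coprime p → Commute a d)
    (hz2 : ∀ x ∈ Cfsg.fittingSubgroup X, (∃ n, orderOf x = p ^ n) → Commute a ⁅x, a⁆) :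
    a ∈ Cfsg.fittingSubgroup X := by
  haveI : Fact p.Prime := ⟨hp⟩
  have hFn : (Cfsg.fittingSubgroup X).Normal := Cfsg.Agent.Helper71.fittingSubgroup_normal X
  have hFnil : Group.IsNilpotent (Cfsg.fittingSubgroup X) :=
    Cfsg.Agent.Helper71.fittingSubgroup_isNilpotent X
  obtain ⟨P, hPp, hPmem⟩ :=
    Cfsg.Agent.Helper25.exists_pElts_subgroup (Cfsg.fittingSubgroup X) hFnil p hp
  haveI hPn : P.Normal := by
    refine ⟨fun x hx g => ?_⟩
    rw [hPmem] at hx ⊢
    refine ⟨hFn.conj_mem x hx.1 g, ?_⟩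
    obtain ⟨n, hn⟩ := hx.2
    exact ⟨n, by rw [← hn]; exact Cfsg.Agent.Helper25.orderOf_conj' g x⟩
  have hC : ∀ x : X, (∀ y ∈ P, y * x = x * y) → x ∈ Subgroup.centralizer (P : Set X) := by
    intro x hx
    rw [Subgroup.mem_centralizer_iff]
    exact hx
  have ha : ∀ x ∈ P, Commute a ⁅x, a⁆ := by
    intro x hx
    rw [hPmem] at hx
    exact hz2 x hx.1 hx.2
  have hmk := Cfsg.Agent.Helper24.mk_mem_pCore_of_quadratic hodd p P hPp
    (Subgroup.centralizer (P : Set X)) hC a ha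
  have hWn : ((Cfsg.pCore p (X ⧸ Subgroup.centralizer (P : Set X))).comap
      (QuotientGroup.mk' (Subgroup.centralizer (P : Set X)))).Normal :=
    Subgroup.Normal.comap (Cfsg.pCore_normal p _) _
  have hWpow : ∀ w ∈ (Cfsg.pCore p (X ⧸ Subgroup.centralizer (P : Set X))).comap
      (QuotientGroup.mk' (Subgroup.centralizer (P : Set X))),
      ∃ k : ℕ, w ^ p ^ k ∈ Subgroup.centralizer (P : Set X) := by
    intro w hw
    obtain ⟨k, hk⟩ := Cfsg.Agent.Helper49.pow_eq_one_of_mem_isPGroup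
      (Cfsg.Agent.Helper24.isPGroup_pCore p (X ⧸ Subgroup.centralizer (P : Set X)))
      (Subgroup.mem_comap.mp hw)
    refine ⟨k, ?_⟩
    rw [← QuotientGroup.eq_one_iff]
    simpa using hk
  have hX1n : (Subgroup.centralizer
      {d : X | d ∈ Cfsg.fittingSubgroup X ∧ (orderOf d).Coprime p}).Normal := by
    refine ⟨fun g hg x => ?_⟩
    rw [Subgroup.mem_centralizer_iff] at hg ⊢
    intro d hd
    have hd' : x⁻¹ * d * x ∈ {d : X | d ∈ Cfsg.fittingSubgroup X ∧ (orderOf d).Coprime p} := by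
      refine ⟨by simpa using hFn.conj_mem d hd.1 x⁻¹, ?_⟩
      have h5 : orderOf (x⁻¹ * d * x) = orderOf d := by
        simpa using Cfsg.Agent.Helper25.orderOf_conj' x⁻¹ d
      show (orderOf (x⁻¹ * d * x)).Coprime p
      rw [h5]; exact hd.2
    have h1 := hg _ hd'
    calc d * (x * g * x⁻¹) = x * (x⁻¹ * d * x * g) * x⁻¹ := by group
      _ = x * (g * (x⁻¹ * d * x)) * x⁻¹ := by rw [h1]
      _ = x * g * x⁻¹ * d := by group
  obtain ⟨W, hWn', hWpow', haW⟩ : ∃ W : Subgroup X, W.Normal ∧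
      (∀ w ∈ W, ∃ k : ℕ, w ^ p ^ k ∈ Subgroup.centralizer (P : Set X)) ∧ a ∈ W :=
    ⟨_, hWn, hWpow, hmk⟩
  obtain ⟨X1, hX1n', hX1def⟩ : ∃ X1 : Subgroup X, X1.Normal ∧ X1 = Subgroup.centralizer
      {d : X | d ∈ Cfsg.fittingSubgroup X ∧ (orderOf d).Coprime p} := ⟨_, hX1n, rfl⟩
  have hTn : (W ⊓ X1).Normal := by
    haveI := hWn'
    haveI := hX1n'
    infer_instance
  have haX1 : a ∈ X1 := by
    rw [hX1def, Subgroup.mem_centralizer_iff]
    intro d hd
    exact (hz1 d hd.1 hd.2).eq.symm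
  have haT : a ∈ W ⊓ X1 := Subgroup.mem_inf.mpr ⟨haW, haX1⟩
  have hkey : ∀ t ∈ W ⊓ X1, ∃ k : ℕ, ∀ s ∈ W ⊓ X1, s * t ^ p ^ k = t ^ p ^ k * s := by
    intro t ht
    rw [Subgroup.mem_inf] at ht
    obtain ⟨k, hk⟩ := hWpow' t ht.1
    have ht'X1 : t ^ p ^ k ∈ X1 := X1.pow_mem ht.2 _
    have ht'F : t ^ p ^ k ∈ Subgroup.centralizer (Cfsg.fittingSubgroup X : Set X) := by
      rw [Subgroup.mem_centralizer_iff]
      intro d hd
      obtain ⟨j, m, hm, hjm⟩ :=
        Nat.exists_eq_pow_mul_and_not_dvd (orderOf_pos d).ne' p hp.ne_one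
      have hc1 : d ^ m * t ^ p ^ k = t ^ p ^ k * d ^ m := by
        have h3 : d ^ m ∈ P := by
          rw [hPmem]
          refine ⟨Subgroup.pow_mem _ hd _, ?_⟩
          have h1 : (d ^ m) ^ p ^ j = 1 := by
            rw [← pow_mul, mul_comm, ← hjm, pow_orderOf_eq_one]
          obtain ⟨i, -, hi⟩ := (Nat.dvd_prime_pow hp).mp (orderOf_dvd_of_pow_eq_one h1)
          exact ⟨i, hi⟩
        exact Subgroup.mem_centralizer_iff.mp hk _ h3
      have hc2 : d ^ p ^ j * t ^ p ^ k = t ^ p ^ k * d ^ p ^ j := by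
        have h3 : d ^ p ^ j ∈ {d : X | d ∈ Cfsg.fittingSubgroup X ∧ (orderOf d).Coprime p} := by
          refine ⟨Subgroup.pow_mem _ hd _, ?_⟩
          have h1 : (d ^ p ^ j) ^ m = 1 := by rw [← pow_mul, ← hjm, pow_orderOf_eq_one]
          exact Nat.Coprime.coprime_dvd_left (orderOf_dvd_of_pow_eq_one h1)
            ((Nat.Prime.coprime_iff_not_dvd hp).mpr hm).symm
        rw [hX1def] at ht'X1
        exact Subgroup.mem_centralizer_iff.mp ht'X1 _ h3
      have hcop : Nat.Coprime m (p ^ j) :=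
        Nat.Coprime.pow_right _ ((Nat.Prime.coprime_iff_not_dvd hp).mpr hm).symm
      have hbez : (1 : ℤ) = (m : ℤ) * Nat.gcdA m (p ^ j) + ((p ^ j : ℕ) : ℤ) * Nat.gcdB m (p ^ j) := by
        have h7 := Nat.gcd_eq_gcd_ab m (p ^ j)
        rw [Nat.Coprime] at hcop
        rw [hcop] at h7
        simpa using h7
      have hd1 : d = (d ^ m) ^ (Nat.gcdA m (p ^ j)) * (d ^ p ^ j) ^ (Nat.gcdB m (p ^ j)) := by
        rw [← zpow_natCast d m, ← zpow_natCast d (p ^ j), ← zpow_mul, ← zpow_mul, ← zpow_add,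
          ← hbez, zpow_one]
      have hcomm : Commute (t ^ p ^ k) d := by
        rw [hd1]
        exact (Commute.zpow_right hc1.symm _).mul_right (Commute.zpow_right hc2.symm _)
      exact hcomm.eq.symm
    have ht'Fit : t ^ p ^ k ∈ Cfsg.fittingSubgroup X :=
      Cfsg.Agent.Helper73.centralizer_fittingSubgroup_le ht'F
    obtain ⟨j, m, hm, hjm⟩ :=
      Nat.exists_eq_pow_mul_and_not_dvd (orderOf_pos (t ^ p ^ k)).ne' p hp.ne_one
    refine ⟨k + j, ?_⟩
    have hS' : t ^ p ^ (k + j) ∈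
        {d : X | d ∈ Cfsg.fittingSubgroup X ∧ (orderOf d).Coprime p} := by
      rw [pow_add, pow_mul]
      refine ⟨Subgroup.pow_mem _ ht'Fit _, ?_⟩
      have h1 : ((t ^ p ^ k) ^ p ^ j) ^ m = 1 := by rw [← pow_mul, ← hjm, pow_orderOf_eq_one]
      exact Nat.Coprime.coprime_dvd_left (orderOf_dvd_of_pow_eq_one h1)
        ((Nat.Prime.coprime_iff_not_dvd hp).mpr hm).symm
    intro s hs
    have hs2 := (Subgroup.mem_inf.mp hs).2
    rw [hX1def] at hs2
    exact (Subgroup.mem_centralizer_iff.mp hs2 _ hS').symm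
  have hTnil : Group.IsNilpotent ↥(W ⊓ X1) := by
    apply Group.of_quotient_center_nilpotent
    have hpg : IsPGroup p (↥(W ⊓ X1) ⧸ Subgroup.center ↥(W ⊓ X1)) := by
      intro y
      obtain ⟨t, rfl⟩ := QuotientGroup.mk_surjective y
      obtain ⟨k, hk⟩ := hkey (t : X) t.2
      refine ⟨k, ?_⟩
      rw [← QuotientGroup.mk_pow, QuotientGroup.eq_one_iff, Subgroup.mem_center_iff]
      intro s
      apply Subtype.ext
      exact hk (s : X) s.2
    exact hpg.isNilpotent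
  exact Cfsg.Agent.Helper71.le_fittingSubgroup (W ⊓ X1) hTn hTnil haT

/-- In a solvable subgroup `L` of odd order, an element of `L` centralizing the `p'`-elements of
`F(L)` and acting quadratically on the `p`-elements of `F(L)` lies in `F(L)`. -/
theorem bgu_pstable_mem_fittingOf [Finite G] {L : Subgroup G} (hL : Group.IsSolvable L)
    (hodd : Odd (Nat.card L)) {p : ℕ} (hp : p.Prime) {z : G} (hzL : z ∈ L)
    (hz1 : ∀ d ∈ Cfsg.fittingOf L, (orderOf d).Coprime p → Commute z d)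
    (hz2 : ∀ x ∈ Cfsg.fittingOf L, (∃ n, orderOf x = p ^ n) → Commute z ⁅x, z⁆) :
    z ∈ Cfsg.fittingOf L := by
  haveI := hL
  have h := bgu_pstable_mem_fittingSubgroup (X := ↥L) hodd hp (a := ⟨z, hzL⟩) (by
    intro d hd hdo
    have h1 := hz1 (d : G) ⟨d, hd, rfl⟩ (by rw [Subgroup.orderOf_coe]; exact hdo)
    show (⟨z, hzL⟩ : ↥L) * d = d * ⟨z, hzL⟩
    apply Subtype.ext
    exact h1.eq) (by
    intro x hx hxo
    have h1 := hz2 (x : G) ⟨x, hx, rfl⟩ (by
      obtain ⟨n, hn⟩ := hxo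
      exact ⟨n, by rw [← hn, Subgroup.orderOf_coe]⟩)
    show (⟨z, hzL⟩ : ↥L) * ⁅x, ⟨z, hzL⟩⁆ = ⁅x, ⟨z, hzL⟩⁆ * ⟨z, hzL⟩
    apply Subtype.ext
    exact h1.eq)
  exact ⟨⟨z, hzL⟩, h, rfl⟩

end Cfsg.Agent.Helper1
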