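import Cfsg.Prelude.Def_OddOrderLocal

/-!
# The setting of B&G Corollary 15.9 (statement S1376)

`C9 M N K U L x`: `M`, `N`, `L` are maximal subgroups, `(K, U)` is a standard factorisation of `N`
with `K ≠ 1 ≠ U`, `L` is the partner of `N` (S1366), `x ≠ 1` lies in `M_σ` with `C_G(x) ≤ N`,
`C_G(x) ⊄ M`, and the conclusions of S1435 for `(N, K, U, L, H := M)` hold.
-/

set_option autoImplicit false

namespace Cfsg.Agent.Helper1

open Subgroup

universe u

variable {G : Type u} [Group G]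

/-- The setting of S1376 after S1435 has been applied. -/
structure C9 (M N K U L : Subgroup G) (x : G) : Prop where
  hM : IsCoatom M
  hN : IsCoatom N
  hL : IsCoatom L
  hKU : IsSigmaDecomposition N K U
  hK1 : K ≠ ⊥
  hU1 : U ≠ ⊥
  hKst : K = sigmaCore L ⊓
    centralizer ((sigmaCore N ⊓ centralizer (K : Set G) : Subgroup G) : Set G)
  hKstH : IsPiHallOf (kappa L) (sigmaCore N ⊓ centralizer (K : Set G)) L
  hx : x ∈ sigmaCore M
  hx1 : x ≠ 1
  hxM : ¬ centralizer ({x} : Set G) ≤ M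
  hxN : centralizer ({x} : Set G) ≤ N
  hκ : kappa M = ∅
  hUσ : U ≤ sigmaCore M
  hMN : N ⊓ M = U ⊔ K
  hKF : K ≤ fittingOf (M ⊓ L)
  hE : IsComplIn (M ⊓ L) (sigmaCore M) M

end Cfsg.Agent.Helper1
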