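import Mathlib.GroupTheory.SchurZassenhaus
import Mathlib.Tactic.Group

set_option autoImplicit false
open scoped IsMulCommutative

namespace Cfsg.Agent.Helper1

variable {G : Type*} [Group G]

/-- Re-indexing a product over the left cosets of `U` of a right-`U`-invariant function. -/
theorem prod_out_mul_left (U : Subgroup G) [Fintype (G ⧸ U)] {M : Type*} [CommMonoid M]
    (f : G → M) (hf : ∀ g, ∀ u ∈ U, f (g * u) = f g) (x : G) :
    ∏ c : G ⧸ U, f (x * c.out) = ∏ c : G ⧸ U, f c.out := by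
  refine Fintype.prod_equiv (MulAction.toPerm x) _ _ (fun c => ?_)
  have h1 : ((x * c.out : G) : G ⧸ U) = (((x • c : G ⧸ U).out : G) : G ⧸ U) := by
    rw [QuotientGroup.out_eq']
    have : x • (c.out : G ⧸ U) = ((x • c.out : G) : G ⧸ U) := MulAction.Quotient.smul_mk U x c.out
    rw [QuotientGroup.out_eq'] at this
    rw [this]; rfl
  have h2 : (x * c.out)⁻¹ * (x • c : G ⧸ U).out ∈ U := QuotientGroup.eq.mp h1
  have h3 := hf (x * c.out) _ h2
  rw [mul_inv_cancel_left] at h3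
  exact h3.symm

/-- Conjugation by an element of the abelian normal subgroup `K` is trivial on `K`. -/
theorem conjNormal_of_mem {K : Subgroup G} [K.Normal] [IsMulCommutative K] (k b : K) :
    MulAut.conjNormal (k : G) b = b := by
  apply Subtype.ext
  rw [MulAut.conjNormal_apply]
  have h := congrArg Subtype.val (mul_comm' k b)
  simp only [Subgroup.coe_mul] at h
  rw [h]; group

/-- The kernel of a crossed homomorphism `β : G → K` whose restriction to `K` is a bijective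
power map is a complement of `K`. -/
theorem isComplement'_of_crossed_hom [Finite G] (K : Subgroup G) [K.Normal] [IsMulCommutative K]
    (n : ℕ) (hcop : (Nat.card K).Coprime n)
    (β : G → K) (hβ : ∀ x y, β (x * y) = β x * MulAut.conjNormal x (β y))
    (hK : ∀ k : K, β k = k ^ n) :
    ∃ H : Subgroup G, Subgroup.IsComplement' K H := by
  have h1 : β 1 = 1 := by
    have := hβ 1 1
    rw [mul_one, map_one] at this
    simpa using this
  let H : Subgroup G :=
    { carrier := {x | β x = 1}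
      one_mem' := h1
      mul_mem' := fun {x y} hx hy => by
        show β (x * y) = 1
        have hx' : β x = 1 := hx
        have hy' : β y = 1 := hy
        rw [hβ, hx', hy', map_one, mul_one]
      inv_mem' := fun {x} hx => by
        show β x⁻¹ = 1
        have hx' : β x = 1 := hx
        have := hβ x x⁻¹
        rw [mul_inv_cancel, h1, hx', one_mul] at this
        have h2 : MulAut.conjNormal x (β x⁻¹) = MulAut.conjNormal x 1 := by rw [← this, map_one]
        exact (MulAut.conjNormal x).injective h2 }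
  refine ⟨H, Subgroup.isComplement'_of_disjoint_and_mul_eq_univ ?_ ?_⟩
  · rw [Subgroup.disjoint_def]
    intro x hxK hxH
    have h2 : β x = 1 := hxH
    have h3 := hK ⟨x, hxK⟩
    rw [h2] at h3
    have h4 : (powCoprime hcop) ⟨x, hxK⟩ = (powCoprime hcop) 1 := by
      rw [powCoprime_apply, powCoprime_apply, ← h3, one_pow]
    have h5 := (powCoprime hcop).injective h4
    exact congrArg Subtype.val h5
  · rw [Set.eq_univ_iff_forall]
    intro g
    obtain ⟨k, hk⟩ : ∃ k : K, k ^ n = β g :=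
      ⟨(powCoprime hcop).symm (β g), (powCoprime hcop).apply_symm_apply (β g)⟩
    refine Set.mem_mul.mpr ⟨(k : G), k.2, (k : G)⁻¹ * g, ?_, by group⟩
    show β ((k : G)⁻¹ * g) = 1
    have h2 : ((k : G)⁻¹ : G) = ((k⁻¹ : K) : G) := rfl
    rw [hβ, h2, conjNormal_of_mem, hK, inv_pow, hk, inv_mul_cancel]

/-- `H¹` averaging: a crossed homomorphism `θ : G → K` vanishing on `U`, where `|K|` is coprime
to `|G : U|`, is principal. -/
theorem crossed_hom_principal [Finite G] (K U : Subgroup G) [K.Normal] [IsMulCommutative K]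
    (hcop : (Nat.card K).Coprime U.index)
    (θ : G → K) (hθ : ∀ x y, θ (x * y) = θ x * MulAut.conjNormal x (θ y))
    (hU : ∀ u ∈ U, θ u = 1) :
    ∃ k : K, ∀ x, θ x = k * (MulAut.conjNormal x k)⁻¹ := by
  classical
  have : Fintype (G ⧸ U) := Fintype.ofFinite _
  have hinv : ∀ g, ∀ u ∈ U, θ (g * u) = θ g := by
    intro g u hu; rw [hθ, hU u hu, map_one, mul_one]
  set k₀ : K := ∏ c : G ⧸ U, θ c.out with hk₀
  have h1 : ∀ x, MulAut.conjNormal x k₀ = (θ x)⁻¹ ^ U.index * k₀ := by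
    intro x
    rw [hk₀, map_prod]
    have h2 : ∀ c : G ⧸ U, MulAut.conjNormal x (θ c.out) = (θ x)⁻¹ * θ (x * c.out) := by
      intro c; rw [hθ, inv_mul_cancel_left]
    simp_rw [h2]
    rw [Finset.prod_mul_distrib, Finset.prod_const, Finset.card_univ, prod_out_mul_left U θ hinv x,
      Subgroup.index_eq_card, Nat.card_eq_fintype_card]
  obtain ⟨k₁, hk₁⟩ : ∃ k₁ : K, k₁ ^ U.index = k₀ :=
    ⟨(powCoprime hcop).symm k₀, (powCoprime hcop).apply_symm_apply k₀⟩
  refine ⟨k₁, fun x => ?_⟩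
  apply (powCoprime hcop).injective
  rw [powCoprime_apply, powCoprime_apply, mul_pow, inv_pow, ← map_pow, hk₁, h1 x, inv_pow]
  rw [mul_inv_rev, inv_inv, mul_comm k₀, mul_comm k₀⁻¹, inv_mul_cancel_right]

/-- The `K`-component map of a complement `H` of the abelian normal subgroup `K` is a crossed
homomorphism. -/
theorem exists_proj_of_complement (K H : Subgroup G) [K.Normal] [IsMulCommutative K]
    (h : Subgroup.IsComplement' K H) :
    ∃ κ : G → K, (∀ g, ((κ g : K) : G)⁻¹ * g ∈ H) ∧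
      (∀ x y, κ (x * y) = κ x * MulAut.conjNormal x (κ y)) ∧
      (∀ g, ∀ k : K, (k : G)⁻¹ * g ∈ H → κ g = k) := by
  have hex := Subgroup.isComplement_iff_existsUnique.mp h
  choose f hf hfu using hex
  have huniq : ∀ g, ∀ k : K, (k : G)⁻¹ * g ∈ H → (f g).1 = k := by
    intro g k hk
    have := hfu g (k, ⟨(k : G)⁻¹ * g, hk⟩) (by simp)
    rw [← this]
  have hmem : ∀ g, (((f g).1 : K) : G)⁻¹ * g ∈ H := by
    intro g
    have h2 : (((f g).1 : K) : G)⁻¹ * g = ((f g).2 : G) :=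
      inv_mul_eq_iff_eq_mul.mpr (hf g).symm
    rw [h2]; exact (f g).2.2
  refine ⟨fun g => (f g).1, hmem, ?_, huniq⟩
  intro x y
  show (f (x * y)).1 = (f x).1 * MulAut.conjNormal x (f y).1
  rw [mul_comm]
  apply huniq
  have h1 := H.mul_mem (hmem x) (hmem y)
  have h2 : ((MulAut.conjNormal x (f y).1 * (f x).1 : K) : G)⁻¹ * (x * y)
      = (((f x).1 : K) : G)⁻¹ * x * ((((f y).1 : K) : G)⁻¹ * y) := by
    rw [Subgroup.coe_mul, MulAut.conjNormal_apply]; group
  rw [h2]; exact h1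

/-- Gaschütz, conjugacy part. -/
theorem gaschutz_conj [Finite G] (K U : Subgroup G) [K.Normal] [IsMulCommutative K]
    (hKU : K ≤ U) (hcop : (Nat.card K).Coprime U.index)
    (H₀ H₁ : Subgroup G) (h₀ : Subgroup.IsComplement' K H₀) (h₁ : Subgroup.IsComplement' K H₁)
    (hU : H₀ ⊓ U = H₁ ⊓ U) :
    ∃ k : K, ∀ x, x ∈ H₀ ↔ (k : G) * x * (k : G)⁻¹ ∈ H₁ := by
  obtain ⟨κ₀, hm₀, hc₀, hu₀⟩ := exists_proj_of_complement K H₀ h₀
  obtain ⟨κ₁, hm₁, hc₁, hu₁⟩ := exists_proj_of_complement K H₁ h₁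
  have hθ : ∀ x y, κ₀ (x * y) * (κ₁ (x * y))⁻¹
      = κ₀ x * (κ₁ x)⁻¹ * MulAut.conjNormal x (κ₀ y * (κ₁ y)⁻¹) := by
    intro x y
    rw [hc₀, hc₁, map_mul, map_inv, mul_inv, mul_mul_mul_comm]
  have hvan : ∀ u ∈ U, κ₀ u * (κ₁ u)⁻¹ = 1 := by
    intro u hu
    have h1 : ((κ₀ u : K) : G)⁻¹ * u ∈ H₀ ⊓ U :=
      ⟨hm₀ u, U.mul_mem (U.inv_mem (hKU (κ₀ u).2)) hu⟩
    rw [hU] at h1
    have h2 := hu₁ u (κ₀ u) h1.1
    rw [h2, mul_inv_cancel]
  obtain ⟨k, hk⟩ := crossed_hom_principal K U hcop (fun x => κ₀ x * (κ₁ x)⁻¹) hθ hvan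
  refine ⟨k, fun x => ⟨fun hx => ?_, fun hx => ?_⟩⟩
  · have h1 : κ₀ x = 1 := hu₀ x 1 (by simpa using hx)
    have h2 := hk x
    simp only [h1, one_mul] at h2
    have h3 : κ₁ x = MulAut.conjNormal x k * k⁻¹ := by
      rw [← inv_inv (κ₁ x), h2, mul_inv_rev, inv_inv]
    have h4 := hm₁ x
    rw [h3, Subgroup.coe_mul, MulAut.conjNormal_apply] at h4
    have h5 : (x * (k : G) * x⁻¹ * ((k⁻¹ : K) : G))⁻¹ * x = (k : G) * x * (k : G)⁻¹ := by
      rw [Subgroup.coe_inv]; group
    rw [h5] at h4; exact h4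
  · have h1 : κ₁ ((k : G) * x * (k : G)⁻¹) = 1 := hu₁ _ 1 (by simpa using hx)
    have h2 := hk ((k : G) * x * (k : G)⁻¹)
    simp only [h1, inv_one, mul_one] at h2
    have h4 := hm₀ ((k : G) * x * (k : G)⁻¹)
    rw [h2, mul_comm, Subgroup.coe_mul, Subgroup.coe_inv, MulAut.conjNormal_apply] at h4
    have h5 : (((k : G) * x * (k : G)⁻¹ * (k : G) * ((k : G) * x * (k : G)⁻¹)⁻¹)⁻¹ * (k : G))⁻¹ *
        ((k : G) * x * (k : G)⁻¹) = x := by group
    rw [h5] at h4; exact h4

end Cfsg.Agent.Helper1
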