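import Cfsg.Agent.Helper1.Gaschutz

set_option autoImplicit false
open scoped IsMulCommutative
open Pointwise

namespace Cfsg.Agent.Helper1

variable {G : Type*} [Group G]

/-- From an `A`-compatible system of coset representatives `σ` of `K` (with `σ (g u) = σ g * ρ u`
for `u ∈ U`) one gets a crossed homomorphism `G → K` restricting to the `|G : U|`-th power map
on `K`. -/
theorem exists_crossed_hom_of_section [Finite G] (K U : Subgroup G) [hKn : K.Normal]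
    [IsMulCommutative K]
    (σ : G → G) (ρ : G → G) (h1 : ∀ g, σ g * g⁻¹ ∈ K) (h2 : ∀ g, ∀ k ∈ K, σ (g * k) = σ g)
    (h3 : ∀ g, ∀ u ∈ U, σ (g * u) = σ g * ρ u) :
    ∃ β : G → K, (∀ x y, β (x * y) = β x * MulAut.conjNormal x (β y)) ∧
      (∀ k : K, β k = k ^ U.index) := by
  classical
  have : Fintype (G ⧸ U) := Fintype.ofFinite _
  have hmem : ∀ x g, x * σ (x⁻¹ * g) * (σ g)⁻¹ ∈ K := by
    intro x g
    have e : x * σ (x⁻¹ * g) * (σ g)⁻¹ = x * (σ (x⁻¹ * g) * (x⁻¹ * g)⁻¹) * x⁻¹ * (σ g * g⁻¹)⁻¹ := by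
      group
    rw [e]
    exact K.mul_mem (hKn.conj_mem _ (h1 _) x) (K.inv_mem (h1 g))
  let d : G → G → K := fun x g => ⟨x * σ (x⁻¹ * g) * (σ g)⁻¹, hmem x g⟩
  have ha : ∀ x g, ∀ u ∈ U, d x (g * u) = d x g := by
    intro x g u hu
    apply Subtype.ext
    show x * σ (x⁻¹ * (g * u)) * (σ (g * u))⁻¹ = x * σ (x⁻¹ * g) * (σ g)⁻¹
    rw [← mul_assoc x⁻¹ g u, h3 _ u hu, h3 g u hu]; group
  have hb : ∀ x y g, d (x * y) g = MulAut.conjNormal x (d y (x⁻¹ * g)) * d x g := by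
    intro x y g
    apply Subtype.ext
    rw [Subgroup.coe_mul, MulAut.conjNormal_apply]
    show x * y * σ ((x * y)⁻¹ * g) * (σ g)⁻¹ =
      x * (y * σ (y⁻¹ * (x⁻¹ * g)) * (σ (x⁻¹ * g))⁻¹) * x⁻¹ * (x * σ (x⁻¹ * g) * (σ g)⁻¹)
    rw [mul_inv_rev, mul_assoc y⁻¹ x⁻¹ g]; group
  have hc : ∀ (k : K) g, d (k : G) g = k := by
    intro k g
    apply Subtype.ext
    show (k : G) * σ ((k : G)⁻¹ * g) * (σ g)⁻¹ = k
    have e : (k : G)⁻¹ * g = g * (g⁻¹ * (k : G)⁻¹ * g⁻¹⁻¹) := by group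
    rw [e, h2 g _ (hKn.conj_mem _ (K.inv_mem k.2) g⁻¹)]; group
  refine ⟨fun x => ∏ c : G ⧸ U, d x c.out, ?_, ?_⟩
  · intro x y
    show ∏ c : G ⧸ U, d (x * y) c.out
      = (∏ c : G ⧸ U, d x c.out) * MulAut.conjNormal x (∏ c : G ⧸ U, d y c.out)
    simp_rw [hb]
    rw [Finset.prod_mul_distrib, mul_comm, map_prod]
    congr 1
    have := prod_out_mul_left U (d y) (ha y) x⁻¹
    rw [← map_prod, ← map_prod, this]
  · intro k
    show ∏ c : G ⧸ U, d (k : G) c.out = k ^ U.index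
    simp_rw [hc]
    rw [Finset.prod_const, Finset.card_univ, Subgroup.index_eq_card, Nat.card_eq_fintype_card]

/-- A complement `A` of the normal subgroup `K` in `U` gives a compatible system of coset
representatives of `K` in `G`. -/
theorem exists_section_of_complement (K U A : Subgroup G) [hKn : K.Normal]
    (hAK : A ⊓ K = ⊥) (hKA : K ⊔ A = U) :
    ∃ σ ρ : G → G, (∀ g, σ g * g⁻¹ ∈ K) ∧ (∀ g, ∀ k ∈ K, σ (g * k) = σ g) ∧
      (∀ g, ∀ u ∈ U, σ (g * u) = σ g * ρ u) := by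
  have hKU : K ≤ U := hKA ▸ le_sup_left
  have hex : ∀ u : G, ∃ a : G, u ∈ U → (a ∈ A ∧ a⁻¹ * u ∈ K) := by
    intro u
    by_cases hu : u ∈ U
    · have hu' : u ∈ ((K ⊔ A : Subgroup G) : Set G) := by rw [hKA]; exact hu
      rw [Subgroup.normal_mul] at hu'
      obtain ⟨k, hk, a, ha, rfl⟩ := Set.mem_mul.mp hu'
      refine ⟨a, fun _ => ⟨ha, ?_⟩⟩
      have e : a⁻¹ * (k * a) = a⁻¹ * k * a⁻¹⁻¹ := by group
      rw [e]; exact hKn.conj_mem k hk a⁻¹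
    · exact ⟨1, fun h => absurd h hu⟩
  choose ρ hρ using hex
  have huniq : ∀ u a, u ∈ U → a ∈ A → a⁻¹ * u ∈ K → ρ u = a := by
    intro u a hu ha hau
    obtain ⟨h1, h2⟩ := hρ u hu
    have h3 : (ρ u)⁻¹ * a ∈ A ⊓ K := by
      refine ⟨A.mul_mem (A.inv_mem h1) ha, ?_⟩
      have e : (ρ u)⁻¹ * a = (ρ u)⁻¹ * u * (a⁻¹ * u)⁻¹ := by group
      rw [e]; exact K.mul_mem h2 (K.inv_mem hau)
    rw [hAK, Subgroup.mem_bot] at h3
    exact (inv_mul_eq_one.mp h3)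
  have hρK : ∀ u k, u ∈ U → k ∈ K → ρ (u * k) = ρ u := by
    intro u k hu hk
    obtain ⟨h1, h2⟩ := hρ u hu
    apply huniq _ _ (U.mul_mem hu (hKU hk)) h1
    rw [← mul_assoc]; exact K.mul_mem h2 hk
  have hρmul : ∀ u u', u ∈ U → u' ∈ U → ρ (u * u') = ρ u * ρ u' := by
    intro u u' hu hu'
    obtain ⟨h1, h2⟩ := hρ u hu
    obtain ⟨h1', h2'⟩ := hρ u' hu'
    apply huniq _ _ (U.mul_mem hu hu') (A.mul_mem h1 h1')
    have e : (ρ u * ρ u')⁻¹ * (u * u') = (ρ u')⁻¹ * ((ρ u)⁻¹ * u) * (ρ u')⁻¹⁻¹ * ((ρ u')⁻¹ * u') := by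
      group
    rw [e]; exact K.mul_mem (hKn.conj_mem _ h2 _) h2'
  let r : G → G := fun g => ((g : G ⧸ U)).out
  have hr : ∀ g, (r g)⁻¹ * g ∈ U := by
    intro g
    exact QuotientGroup.eq.mp (QuotientGroup.out_eq' (g : G ⧸ U))
  have hru : ∀ g u, u ∈ U → r (g * u) = r g := by
    intro g u hu
    show ((g * u : G) : G ⧸ U).out = ((g : G ⧸ U)).out
    have : ((g * u : G) : G ⧸ U) = (g : G ⧸ U) := by
      rw [QuotientGroup.eq]
      have e : (g * u)⁻¹ * g = u⁻¹ := by group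
      rw [e]; exact U.inv_mem hu
    rw [this]
  refine ⟨fun g => r g * ρ ((r g)⁻¹ * g), ρ, ?_, ?_, ?_⟩
  · intro g
    show r g * ρ ((r g)⁻¹ * g) * g⁻¹ ∈ K
    obtain ⟨h1, h2⟩ := hρ _ (hr g)
    have e : r g * ρ ((r g)⁻¹ * g) * g⁻¹ =
        (r g * ρ ((r g)⁻¹ * g)) * ((ρ ((r g)⁻¹ * g))⁻¹ * ((r g)⁻¹ * g))⁻¹ * (r g * ρ ((r g)⁻¹ * g))⁻¹ := by
      group
    rw [e]; exact hKn.conj_mem _ (K.inv_mem h2) _
  · intro g k hk
    show r (g * k) * ρ ((r (g * k))⁻¹ * (g * k)) = r g * ρ ((r g)⁻¹ * g)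
    rw [hru g k (hKU hk), ← mul_assoc, hρK _ _ (hr g) hk]
  · intro g u hu
    show r (g * u) * ρ ((r (g * u))⁻¹ * (g * u)) = r g * ρ ((r g)⁻¹ * g) * ρ u
    rw [hru g u hu, ← mul_assoc, hρmul _ _ (hr g) hu, mul_assoc]

/-- Gaschütz, existence part. -/
theorem gaschutz_exists [Finite G] (K U : Subgroup G) [K.Normal] [IsMulCommutative K]
    (hcop : (Nat.card K).Coprime U.index)
    (A : Subgroup G) (hAK : A ⊓ K = ⊥) (hKA : K ⊔ A = U) :
    ∃ H : Subgroup G, Subgroup.IsComplement' K H := by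
  obtain ⟨σ, ρ, h1, h2, h3⟩ := exists_section_of_complement K U A hAK hKA
  obtain ⟨β, hβ, hβK⟩ := exists_crossed_hom_of_section K U σ ρ h1 h2 h3
  exact isComplement'_of_crossed_hom K U.index hcop β hβ hβK

end Cfsg.Agent.Helper1
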