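import Cfsg.Agent.Helper1.FpfMain
import Cfsg.Agent.Helper1.PQ
import Cfsg.Agent.Helper1.MinNormal
import Cfsg.Agent.Helper35.CoprimeSylow

set_option autoImplicit false
open scoped IsMulCommutative
open Pointwise
open scoped commutatorElement

namespace Cfsg.Agent.Helper1

variable {G : Type*} [Group G]

theorem mem_normalizer_iSup {ι : Sort*} (S : ι → Subgroup G) (g : G)
    (h : ∀ i, g ∈ Subgroup.normalizer ((S i : Subgroup G) : Set G)) :
    g ∈ Subgroup.normalizer ((⨆ i, S i : Subgroup G) : Set G) := by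
  rw [Subgroup.mem_normalizer_iff_map_conj_eq, Subgroup.map_iSup]
  exact iSup_congr (fun i => Subgroup.mem_normalizer_iff_map_conj_eq.mp (h i))

theorem mem_normalizer_sup (S T : Subgroup G) (g : G)
    (hS : g ∈ Subgroup.normalizer (S : Set G)) (hT : g ∈ Subgroup.normalizer (T : Set G)) :
    g ∈ Subgroup.normalizer ((S ⊔ T : Subgroup G) : Set G) := by
  rw [Subgroup.mem_normalizer_iff_map_conj_eq] at hS hT ⊢
  rw [Subgroup.map_sup, hS, hT]

theorem mem_normalizer_inf_centralizer (K : Subgroup G) (g a : G)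
    (hg : g ∈ Subgroup.normalizer (K : Set G)) (hga : g * a = a * g) :
    g ∈ Subgroup.normalizer ((K ⊓ Subgroup.centralizer {a} : Subgroup G) : Set G) := by
  rw [Subgroup.mem_set_normalizer_iff] at hg ⊢
  intro h
  have hg' : h ∈ K ↔ g * h * g⁻¹ ∈ K := hg h
  show h ∈ K ⊓ Subgroup.centralizer {a} ↔ g * h * g⁻¹ ∈ K ⊓ Subgroup.centralizer {a}
  rw [Subgroup.mem_inf, Subgroup.mem_inf, ← hg', Subgroup.mem_centralizer_singleton_iff,
    Subgroup.mem_centralizer_singleton_iff]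
  have h1 : g * h * g⁻¹ * a = g * (h * a) * g⁻¹ := by
    have : g⁻¹ * a = a * g⁻¹ := by
      have h2 : g⁻¹ * (g * a) * g⁻¹ = g⁻¹ * (a * g) * g⁻¹ := by rw [hga]
      simpa [mul_assoc] using h2.symm
    rw [mul_assoc, this]; group
  have h2 : a * (g * h * g⁻¹) = g * (a * h) * g⁻¹ := by
    rw [← mul_assoc, ← mul_assoc, ← hga]; group
  rw [h1, h2]
  constructor
  · rintro ⟨hk, hc⟩; exact ⟨hk, by rw [hc]⟩
  · rintro ⟨hk, hc⟩
    refine ⟨hk, ?_⟩
    have := congrArg (fun z => g⁻¹ * z * g) hc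
    simpa [mul_assoc] using this

theorem le_normalizer_of_commutator_le {K L : Subgroup G} (hLK : L ≤ K) (hc : ⁅K, K⁆ ≤ L) :
    K ≤ Subgroup.normalizer (L : Set G) := by
  have key : ∀ k ∈ K, ∀ l ∈ L, k * l * k⁻¹ ∈ L := by
    intro k hk l hl
    have h1 : k * l * k⁻¹ = ⁅k, l⁆ * l := by rw [commutatorElement_def]; group
    rw [h1]
    exact L.mul_mem (hc (Subgroup.commutator_mem_commutator hk (hLK hl))) hl
  intro k hk
  rw [Subgroup.mem_set_normalizer_iff]
  intro l
  refine ⟨fun hl => key k hk l hl, fun hl => ?_⟩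
  have := key k⁻¹ (K.inv_mem hk) _ hl
  simpa [mul_assoc] using this

theorem card_lt_card_of_lt [Finite G] {H K : Subgroup G} (h : H < K) : Nat.card H < Nat.card K := by
  by_contra hcon
  push Not at hcon
  exact h.ne (Subgroup.eq_of_le_of_card_ge h.le hcon)

/-- Key step: modulo the commutator subgroup, `K` is generated by the centralisers `C_K(a)`. -/
theorem le_gen_sup_commutator [Finite G] (A K : Subgroup G) [IsMulCommutative A]
    (hAK : A ≤ Subgroup.normalizer (K : Set G)) (hcop : (Nat.card A).Coprime (Nat.card K))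
    (r : ℕ) (hr : r.Prime) (x y : G) (hxA : x ∈ A) (hyA : y ∈ A) (hxr : x ^ r = 1)
    (hyr : y ^ r = 1) (hx1 : x ≠ 1) (hxy : ∀ t : ℕ, x ^ t * y ≠ 1) :
    K ≤ (⨆ a ∈ {a : G | a ∈ A ∧ a ≠ 1}, K ⊓ Subgroup.centralizer {a}) ⊔ ⁅K, K⁆ := by
  set L : Subgroup G :=
    (⨆ a ∈ {a : G | a ∈ A ∧ a ≠ 1}, K ⊓ Subgroup.centralizer {a}) ⊔ ⁅K, K⁆ with hL
  have hKK : ⁅K, K⁆ ≤ K := by
    rw [Subgroup.commutator_le]
    intro a ha b hb
    rw [commutatorElement_def]
    exact K.mul_mem (K.mul_mem (K.mul_mem ha hb) (K.inv_mem ha)) (K.inv_mem hb)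
  have hgenK : (⨆ a ∈ {a : G | a ∈ A ∧ a ≠ 1}, K ⊓ Subgroup.centralizer {a}) ≤ K :=
    iSup₂_le (fun a _ => inf_le_left)
  have hLK : L ≤ K := sup_le hgenK hKK
  have hgenL : (⨆ a ∈ {a : G | a ∈ A ∧ a ≠ 1}, K ⊓ Subgroup.centralizer {a}) ≤ L := le_sup_left
  have hcomL : ⁅K, K⁆ ≤ L := le_sup_right
  have hcomm : ∀ a ∈ A, ∀ b ∈ A, a * b = b * a := fun a ha b hb =>
    congrArg Subtype.val (mul_comm' (⟨a, ha⟩ : A) ⟨b, hb⟩)
  have hAL : A ≤ Subgroup.normalizer (L : Set G) := by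
    intro g hg
    apply mem_normalizer_sup
    · apply mem_normalizer_iSup; intro a
      apply mem_normalizer_iSup; intro ha
      exact mem_normalizer_inf_centralizer K g a (hAK hg) (hcomm g hg a ha.1)
    · exact mem_normalizer_commutator (hAK hg) (hAK hg)
  have hKL : K ≤ Subgroup.normalizer (L : Set G) := le_normalizer_of_commutator_le hLK hcomL
  set H : Subgroup G := Subgroup.normalizer (L : Set G) with hH
  let π : H →* H ⧸ L.subgroupOf H := QuotientGroup.mk' (L.subgroupOf H)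
  have hπ1 : ∀ h : H, π h = 1 ↔ (h : G) ∈ L := by
    intro h
    rw [QuotientGroup.mk'_apply, QuotientGroup.eq_one_iff, Subgroup.mem_subgroupOf]
  set V : Subgroup (H ⧸ L.subgroupOf H) := (K.subgroupOf H).map π with hV
  have hVc : IsMulCommutative V := by
    refine ⟨⟨fun a b => ?_⟩⟩
    obtain ⟨k1, hk1, h1⟩ := Subgroup.mem_map.mp a.2
    obtain ⟨k2, hk2, h2⟩ := Subgroup.mem_map.mp b.2
    apply Subtype.ext
    show (a : H ⧸ L.subgroupOf H) * b = b * a
    rw [← h1, ← h2, ← map_mul, ← map_mul]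
    have h3 : π ((k2 * k1)⁻¹ * (k1 * k2)) = 1 := by
      rw [hπ1]
      have e : (((k2 * k1)⁻¹ * (k1 * k2) : H) : G) = ⁅(k1 : G)⁻¹, (k2 : G)⁻¹⁆ := by
        rw [commutatorElement_def]; simp [mul_assoc]
      rw [e]
      exact hcomL (Subgroup.commutator_mem_commutator
        (K.inv_mem (Subgroup.mem_subgroupOf.mp hk1)) (K.inv_mem (Subgroup.mem_subgroupOf.mp hk2)))
    rw [map_mul, map_inv, inv_mul_eq_one] at h3
    exact h3.symm
  have hfix : ∀ a (ha : a ∈ A), a ≠ 1 → V ⊓ Subgroup.centralizer {π ⟨a, hAL ha⟩} = ⊥ := by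
    intro a ha ha1
    rw [eq_bot_iff]
    intro v hv
    obtain ⟨hvV, hvC⟩ := Subgroup.mem_inf.mp hv
    obtain ⟨k, hk, rfl⟩ := Subgroup.mem_map.mp hvV
    have hk' : (k : G) ∈ K := Subgroup.mem_subgroupOf.mp hk
    rw [Subgroup.mem_bot, hπ1]
    have hvC' : Commute (π k) (π ⟨a, hAL ha⟩) := Subgroup.mem_centralizer_singleton_iff.mp hvC
    have hinv : ∀ b ∈ Subgroup.zpowers a, (k : G)⁻¹ * b * (k : G) * b⁻¹ ∈ L := by
      intro b hb
      obtain ⟨n, rfl⟩ := Subgroup.mem_zpowers_iff.mp hb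
      have hbH : a ^ n ∈ H := H.zpow_mem (hAL ha) n
      have h1 : Commute (π k) (π ⟨a ^ n, hbH⟩) := by
        have e : (⟨a ^ n, hbH⟩ : H) = ⟨a, hAL ha⟩ ^ n := Subtype.ext (by simp)
        rw [e, map_zpow]
        exact hvC'.zpow_right n
      have h2 : π (k⁻¹ * ⟨a ^ n, hbH⟩ * k * ⟨a ^ n, hbH⟩⁻¹) = 1 := by
        rw [map_mul, map_mul, map_mul, map_inv, map_inv, mul_assoc (π k)⁻¹, ← h1.eq]; group
      exact (hπ1 _).mp h2
    have hcopa : (Nat.card (Subgroup.zpowers a)).Coprime (Nat.card L) :=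
      Nat.Coprime.coprime_dvd_left (Subgroup.card_dvd_of_le (Subgroup.zpowers_le.mpr ha))
        (Nat.Coprime.coprime_dvd_right (Subgroup.card_dvd_of_le hLK) hcop)
    have hsolv : Group.IsSolvable (Subgroup.zpowers a) :=
      Group.isSolvable_of_comm (fun u v => mul_comm' u v)
    obtain ⟨c, hc, hcn⟩ := Cfsg.Agent.Helper35.exists_fixed_in_coset (A := Subgroup.zpowers a)
      (N := L) (Subgroup.zpowers_le.mpr (hAL ha)) hcopa (Or.inl hsolv) (k : G) hinv
    have hcK : c ∈ K := by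
      have := K.mul_mem hk' (hLK hcn)
      simpa using this
    have hca : c ∈ Subgroup.centralizer {a} := by
      rw [Subgroup.mem_centralizer_singleton_iff]
      exact ((Subgroup.mem_centralizer_iff.mp hc) a (Subgroup.mem_zpowers a)).symm
    have hcL : c ∈ L :=
      hgenL (Subgroup.mem_iSup_of_mem a (Subgroup.mem_iSup_of_mem ⟨ha, ha1⟩ ⟨hcK, hca⟩))
    have e : (k : G) = c * ((k : G)⁻¹ * c)⁻¹ := by group
    rw [e]; exact L.mul_mem hcL (L.inv_mem hcn)
  have hxH : x ∈ H := hAL hxA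
  have hyH : y ∈ H := hAL hyA
  have hnorm : ∀ g (hg : g ∈ A), π ⟨g, hAL hg⟩ ∈ Subgroup.normalizer (V : Set (H ⧸ L.subgroupOf H)) := by
    intro g hg
    apply Subgroup.le_normalizer_map π
    apply Subgroup.mem_map_of_mem
    apply Subgroup.le_normalizer_comap H.subtype
    exact hAK hg
  have key : ∀ v ∈ V, v ^ r = 1 := by
    intro v hv
    refine pow_eq_one_of_fpf V (π ⟨x, hxH⟩) (π ⟨y, hyH⟩) (hnorm x hxA) (hnorm y hyA) ?_ r hr ?_ ?_
      (hfix x hxA hx1) ?_ v hv
    · rw [← map_mul, ← map_mul]; congr 1; exact Subtype.ext (hcomm x hxA y hyA)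
    · rw [← map_pow]
      have : (⟨x, hxH⟩ : H) ^ r = 1 := Subtype.ext hxr
      rw [this, map_one]
    · rw [← map_pow]
      have : (⟨y, hyH⟩ : H) ^ r = 1 := Subtype.ext hyr
      rw [this, map_one]
    · intro t _
      have e : π ⟨x, hxH⟩ ^ t * π ⟨y, hyH⟩ =
          π ⟨x ^ t * y, hAL (A.mul_mem (A.pow_mem hxA t) hyA)⟩ := by
        rw [← map_pow, ← map_mul]; rfl
      rw [e]
      exact hfix _ (A.mul_mem (A.pow_mem hxA t) hyA) (hxy t)
  intro k hk
  have h1 : π ⟨k, hKL hk⟩ ∈ V := Subgroup.mem_map_of_mem π (Subgroup.mem_subgroupOf.mpr hk)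
  have h2 := key _ h1
  rw [← map_pow, hπ1] at h2
  have h3 : k ^ r ∈ L := h2
  have hox : orderOf x = r := by
    rcases (Nat.dvd_prime hr).mp (orderOf_dvd_of_pow_eq_one hxr) with h | h
    · exact absurd (orderOf_eq_one_iff.mp h) hx1
    · exact h
  have hrA : r ∣ Nat.card A := by rw [← hox]; exact Subgroup.orderOf_dvd_natCard A hxA
  have hkc : Nat.Coprime r (orderOf k) :=
    Nat.Coprime.coprime_dvd_left hrA
      (Nat.Coprime.coprime_dvd_right (Subgroup.orderOf_dvd_natCard K hk) hcop)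
  obtain ⟨m, hm⟩ := exists_pow_eq_self_of_coprime hkc
  rw [← hm]; exact L.pow_mem h3 m

/-- Generation by centralisers, for a fixed pair `x`, `y` spanning an elementary abelian
subgroup of `A` of order `r ^ 2`. -/
theorem gen_by_centralizers_aux [Finite G] (A : Subgroup G) [IsMulCommutative A]
    (r : ℕ) (hr : r.Prime) (x y : G) (hxA : x ∈ A) (hyA : y ∈ A) (hxr : x ^ r = 1)
    (hyr : y ^ r = 1) (hx1 : x ≠ 1) (hxy : ∀ t : ℕ, x ^ t * y ≠ 1) (n : ℕ) :
    ∀ K : Subgroup G, Nat.card K = n → A ≤ Subgroup.normalizer (K : Set G) →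
      (Nat.card A).Coprime (Nat.card K) →
      K ≤ ⨆ a ∈ {a : G | a ∈ A ∧ a ≠ 1}, K ⊓ Subgroup.centralizer {a} := by
  induction n using Nat.strong_induction_on with
  | _ n ih =>
    intro K hn hAK hcop
    have hmono : ∀ K' : Subgroup G, K' ≤ K →
        (⨆ a ∈ {a : G | a ∈ A ∧ a ≠ 1}, K' ⊓ Subgroup.centralizer {a}) ≤
          ⨆ a ∈ {a : G | a ∈ A ∧ a ≠ 1}, K ⊓ Subgroup.centralizer {a} :=
      fun K' h => iSup₂_mono (fun a _ => inf_le_inf_right _ h)
    have hgenK : (⨆ a ∈ {a : G | a ∈ A ∧ a ≠ 1}, K ⊓ Subgroup.centralizer {a}) ≤ K :=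
      iSup₂_le (fun a _ => inf_le_left)
    have hsub : ∀ K' : Subgroup G, K' < K → A ≤ Subgroup.normalizer (K' : Set G) →
        K' ≤ ⨆ a ∈ {a : G | a ∈ A ∧ a ≠ 1}, K ⊓ Subgroup.centralizer {a} := by
      intro K' hlt hAK'
      have h1 := ih (Nat.card K') (hn ▸ card_lt_card_of_lt hlt) K' rfl hAK'
        (Nat.Coprime.coprime_dvd_right (Subgroup.card_dvd_of_le hlt.le) hcop)
      exact h1.trans (hmono K' hlt.le)
    have hKK : ⁅K, K⁆ ≤ K := by
      rw [Subgroup.commutator_le]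
      intro a ha b hb
      rw [commutatorElement_def]
      exact K.mul_mem (K.mul_mem (K.mul_mem ha hb) (K.inv_mem ha)) (K.inv_mem hb)
    by_cases hperf : ⁅K, K⁆ = K
    · by_cases hbot : K = ⊥
      · rw [hbot]; exact bot_le
      · have hsolvA : Group.IsSolvable A := Group.isSolvable_of_comm (fun u v => mul_comm' u v)
        have hdvd : Nat.card K ∣
            Nat.card (⨆ a ∈ {a : G | a ∈ A ∧ a ≠ 1}, K ⊓ Subgroup.centralizer {a} : Subgroup G) := by
          rw [← Nat.factorization_prime_le_iff_dvd Nat.card_pos.ne' Nat.card_pos.ne']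
          intro p hp
          have : Fact p.Prime := ⟨hp⟩
          rw [← Nat.Prime.pow_dvd_iff_le_factorization hp Nat.card_pos.ne']
          obtain ⟨P, hP, hPA⟩ := Cfsg.Agent.Helper35.exists_invariant_sylow hAK hcop
            (Or.inl hsolvA) p
          have hPK : P ≠ K := by
            intro hPK
            have hpg : IsPGroup p K := hPK ▸ IsPGroup.of_card hP.2
            have : Group.IsSolvable K := by
              have := hpg.isNilpotent
              infer_instance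
            exact (commutator_lt_of_solvable K hbot).ne hperf
          have hle := hsub P (lt_of_le_of_ne hP.1 hPK) hPA
          rw [← hP.2]
          exact Subgroup.card_dvd_of_le hle
        have heq := Subgroup.eq_of_le_of_card_ge hgenK (Nat.le_of_dvd Nat.card_pos hdvd)
        exact heq.symm.le
    · have h1 := le_gen_sup_commutator A K hAK hcop r hr x y hxA hyA hxr hyr hx1 hxy
      have h2 := hsub ⁅K, K⁆ (lt_of_le_of_ne hKK hperf)
        (fun g hg => mem_normalizer_commutator (hAK hg) (hAK hg))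
      exact h1.trans (sup_le le_rfl h2)

/-- Generation by centralisers: a noncyclic abelian group `A` acting coprimely on `K`. -/
theorem gen_by_centralizers [Finite G] (A K : Subgroup G) [IsMulCommutative A]
    (hA : ¬ IsCyclic A) (hAK : A ≤ Subgroup.normalizer (K : Set G))
    (hcop : (Nat.card A).Coprime (Nat.card K)) :
    (⨆ a ∈ {a : G | a ∈ A ∧ a ≠ 1}, K ⊓ Subgroup.centralizer {a}) = K := by
  obtain ⟨r, hr, x, y, hxr, hyr, hx1, hxy⟩ := exists_elementary_pair hA
  refine le_antisymm (iSup₂_le (fun a _ => inf_le_left)) ?_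
  exact gen_by_centralizers_aux A r hr (x : G) (y : G) x.2 y.2 (congrArg Subtype.val hxr)
    (congrArg Subtype.val hyr) (fun h => hx1 (Subtype.ext h))
    (fun t h => hxy t (Subtype.ext h)) (Nat.card K) K rfl hAK hcop

end Cfsg.Agent.Helper1
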