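import Cfsg.Agent.Helper1.HallConv

set_option autoImplicit false
open Pointwise

namespace Cfsg.Agent.Helper1

variable {G : Type*} [Group G]

/-- For permuting subgroups the join is the product set. -/
theorem coe_sup_of_mul_comm (H K : Subgroup G) (h : (H : Set G) * K = K * H) :
    ((H ⊔ K : Subgroup G) : Set G) = H * K := by
  let L : Subgroup G :=
    { carrier := (H : Set G) * K
      one_mem' := Set.mem_mul.mpr ⟨1, H.one_mem, 1, K.one_mem, by simp⟩
      mul_mem' := by
        rintro x y hx hy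
        obtain ⟨a, ha, b, hb, rfl⟩ := Set.mem_mul.mp hx
        obtain ⟨c, hc, d, hd, rfl⟩ := Set.mem_mul.mp hy
        have h1 : b * c ∈ (K : Set G) * H := Set.mem_mul.mpr ⟨b, hb, c, hc, rfl⟩
        rw [← h] at h1
        obtain ⟨e, he, f, hf, hef⟩ := Set.mem_mul.mp h1
        refine Set.mem_mul.mpr ⟨a * e, H.mul_mem ha he, f * d, K.mul_mem hf hd, ?_⟩
        calc a * e * (f * d) = a * (e * f) * d := by group
          _ = a * (b * c) * d := by rw [hef]
          _ = a * b * (c * d) := by group
      inv_mem' := by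
        rintro x hx
        obtain ⟨a, ha, b, hb, rfl⟩ := Set.mem_mul.mp hx
        have h1 : (a * b)⁻¹ ∈ (K : Set G) * H :=
          Set.mem_mul.mpr ⟨b⁻¹, K.inv_mem hb, a⁻¹, H.inv_mem ha, by group⟩
        rw [← h] at h1
        exact h1 }
  apply Set.Subset.antisymm
  · have hle : H ⊔ K ≤ L :=
      sup_le (fun x hx => Set.mem_mul.mpr ⟨x, hx, 1, K.one_mem, mul_one x⟩)
        (fun x hx => Set.mem_mul.mpr ⟨1, H.one_mem, x, hx, one_mul x⟩)
    exact hle
  · intro x hx
    obtain ⟨a, ha, b, hb, rfl⟩ := Set.mem_mul.mp hx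
    exact (H ⊔ K).mul_mem (Subgroup.mem_sup_left ha) (Subgroup.mem_sup_right hb)

theorem card_sup_le_of_mul_comm [Finite G] (H K : Subgroup G) (h : (H : Set G) * K = K * H) :
    Nat.card (H ⊔ K : Subgroup G) ≤ Nat.card H * Nat.card K := by
  rw [← Nat.card_prod]
  let f : H × K → (H ⊔ K : Subgroup G) := fun x =>
    ⟨(x.1 : G) * (x.2 : G),
      (H ⊔ K).mul_mem (Subgroup.mem_sup_left x.1.2) (Subgroup.mem_sup_right x.2.2)⟩
  apply Nat.card_le_card_of_surjective f
  intro y
  have hy : (y : G) ∈ ((H ⊔ K : Subgroup G) : Set G) := y.2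
  rw [coe_sup_of_mul_comm H K h] at hy
  obtain ⟨a, ha, b, hb, hab⟩ := Set.mem_mul.mp hy
  exact ⟨(⟨a, ha⟩, ⟨b, hb⟩), Subtype.ext hab⟩

/-- The join of a finite family of pairwise permuting subgroups: it contains them, its order is
at most the product of the orders, and it permutes with every member of the family. -/
theorem exists_join_of_permuting [Finite G] (S' : ℕ → Subgroup G)
    (hperm : ∀ q r, (S' q : Set G) * S' r = S' r * S' q) (F : Finset ℕ) :
    ∃ K : Subgroup G, (∀ q ∈ F, S' q ≤ K) ∧ Nat.card K ≤ ∏ q ∈ F, Nat.card (S' q) ∧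
      ∀ r, (K : Set G) * S' r = S' r * K := by
  classical
  induction F using Finset.induction_on with
  | empty =>
    refine ⟨⊥, by simp, by simp, fun r => ?_⟩
    rw [Subgroup.coe_bot, Set.singleton_one, one_mul, mul_one]
  | insert a F ha ih =>
    obtain ⟨K, hK1, hK2, hK3⟩ := ih
    refine ⟨K ⊔ S' a, ?_, ?_, ?_⟩
    · intro q hq
      rcases Finset.mem_insert.mp hq with rfl | hq
      · exact le_sup_right
      · exact (hK1 q hq).trans le_sup_left
    · rw [Finset.prod_insert ha]
      calc Nat.card (K ⊔ S' a : Subgroup G) ≤ Nat.card K * Nat.card (S' a) :=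
            card_sup_le_of_mul_comm K (S' a) (hK3 a)
        _ ≤ (∏ q ∈ F, Nat.card (S' q)) * Nat.card (S' a) := Nat.mul_le_mul_right _ hK2
        _ = Nat.card (S' a) * ∏ q ∈ F, Nat.card (S' q) := mul_comm _ _
    · intro r
      rw [coe_sup_of_mul_comm K (S' a) (hK3 a), mul_assoc, hperm a r, ← mul_assoc, hK3 r, mul_assoc]

/-- Pairwise permuting Sylow subgroups, one for each prime: the group is solvable. -/
theorem isSolvable_of_permuting_sylow [Finite G]
    (S : (p : Nat.Primes) → Sylow (p : ℕ) G)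
    (hS : ∀ p q : Nat.Primes, (S p : Set G) * (S q : Set G) = (S q : Set G) * (S p : Set G)) :
    HallComplHyp G := by
  classical
  intro p hp
  let S' : ℕ → Subgroup G := fun q => if h : q.Prime then (S ⟨q, h⟩ : Subgroup G) else ⊥
  have hS'p : ∀ q (h : q.Prime), S' q = (S ⟨q, h⟩ : Subgroup G) := fun q h => dif_pos h
  have hS'n : ∀ q, ¬ q.Prime → S' q = ⊥ := fun q h => dif_neg h
  have hperm : ∀ q r, (S' q : Set G) * S' r = S' r * S' q := by
    intro q r
    by_cases hq : q.Prime
    · by_cases hr : r.Prime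
      · rw [hS'p q hq, hS'p r hr]; exact hS ⟨q, hq⟩ ⟨r, hr⟩
      · rw [hS'n r hr, Subgroup.coe_bot, Set.singleton_one, one_mul, mul_one]
    · rw [hS'n q hq, Subgroup.coe_bot, Set.singleton_one, one_mul, mul_one]
  have hcard : ∀ q, q.Prime → Nat.card (S' q) = q ^ (Nat.card G).factorization q := by
    intro q hq
    have : Fact q.Prime := ⟨hq⟩
    rw [hS'p q hq]
    exact (S ⟨q, hq⟩).card_eq_multiplicity
  set F : Finset ℕ := (Nat.card G).primeFactors.erase p with hF
  obtain ⟨K, hK1, hK2, -⟩ := exists_join_of_permuting S' hperm F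
  have hFprime : ∀ q ∈ F, q.Prime := fun q hq =>
    Nat.prime_of_mem_primeFactors (Finset.mem_of_mem_erase hq)
  have hprod : ∏ q ∈ F, Nat.card (S' q) = ∏ q ∈ F, q ^ (Nat.card G).factorization q :=
    Finset.prod_congr rfl (fun q hq => hcard q (hFprime q hq))
  rw [hprod] at hK2
  have hdvd : ∏ q ∈ F, q ^ (Nat.card G).factorization q ∣ Nat.card K := by
    apply Finset.prod_dvd_of_isRelPrime
    · intro q hq r hr hqr
      show IsRelPrime (q ^ (Nat.card G).factorization q) (r ^ (Nat.card G).factorization r)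
      rw [← Nat.coprime_iff_isRelPrime]
      exact Nat.Coprime.pow _ _ ((Nat.coprime_primes (hFprime q hq) (hFprime r hr)).mpr hqr)
    · intro q hq
      rw [← hcard q (hFprime q hq)]
      exact Subgroup.card_dvd_of_le (hK1 q hq)
  have hKcard : Nat.card K = ∏ q ∈ F, q ^ (Nat.card G).factorization q :=
    le_antisymm hK2 (Nat.le_of_dvd Nat.card_pos hdvd)
  have htot : (∏ q ∈ F, q ^ (Nat.card G).factorization q) * p ^ (Nat.card G).factorization p
      = Nat.card G := by
    have h1 := Nat.prod_factorization_pow_eq_self (n := Nat.card G) Nat.card_pos.ne'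
    rw [Finsupp.prod, Nat.support_factorization] at h1
    by_cases hpG : p ∈ (Nat.card G).primeFactors
    · rw [hF, Finset.prod_erase_mul _ _ hpG]; exact h1
    · rw [hF, Finset.erase_eq_of_notMem hpG, h1]
      have : (Nat.card G).factorization p = 0 := by
        apply Nat.factorization_eq_zero_of_not_dvd
        intro hd
        exact hpG (Nat.mem_primeFactors.mpr ⟨hp, hd, Nat.card_pos.ne'⟩)
      rw [this, pow_zero, mul_one]
  refine ⟨K, ?_⟩
  have h2 := K.card_mul_index
  have h3 : Nat.card K * K.index = Nat.card K * p ^ (Nat.card G).factorization p := by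
    rw [h2, hKcard]; exact htot.symm
  exact Nat.eq_of_mul_eq_mul_left Nat.card_pos h3

end Cfsg.Agent.Helper1
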