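import Mathlib

/-!
helper1: SUB-CALL S4705O (helper79), piece MOM: the moment count (pure).
-/

set_option autoImplicit false

universe u

namespace Cfsg.Agent.Helper1

variable {H : Type u} [Group H] [Finite H]

/-- MOM: the moment count (pure). -/
theorem s4705o_mom [Fintype H] (p : ℕ) (hp : 5 < p) (f : H → ℤ)
    (hs1 : ∑ g : H, f g = 0) (hs2 : ∑ g : H, f g ^ 2 = (Nat.card H : ℤ)) (y : ℕ)
    (hs3 : ∑ g : H, f g ^ 3 = (Nat.card H : ℤ) * (y : ℤ)) (hle : ∀ g : H, f g ≤ f 1)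
    (h1 : f 1 = (p : ℤ) - 1) (hsing : ∀ g : H, p ∣ orderOf g → f g = -1)
    (hreg : ∀ g : H, ¬ p ∣ orderOf g → 0 ≤ f g)
    (hfaith : ∀ g : H, ¬ p ∣ orderOf g → f g = (p : ℤ) - 1 → g = 1)
    (hcount : 2 * p * Nat.card {g : H // p ∣ orderOf g} = Nat.card H * (p - 1)) :
    Nat.card H = p * (p - 1) * (p - 2) := by
  classical
  have hp5 : (5 : ℤ) < (p : ℤ) := by exact_mod_cast hp
  have hNpos : (0 : ℤ) < (Nat.card H : ℤ) := by exact_mod_cast Nat.card_pos
  let S : Finset H := Finset.univ.filter (fun g : H => p ∣ orderOf g)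
  let R : Finset H := Finset.univ.filter (fun g : H => ¬ p ∣ orderOf g)
  have hsplit : ∀ F : H → ℤ, ∑ g : H, F g = ∑ g ∈ S, F g + ∑ g ∈ R, F g := by
    intro F
    exact (Finset.sum_filter_add_sum_filter_not Finset.univ (fun g : H => p ∣ orderOf g) F).symm
  have hP : Nat.card {g : H // p ∣ orderOf g} = S.card := by
    rw [Nat.card_eq_fintype_card, Fintype.card_subtype]
  have hSmem : ∀ g ∈ S, f g = -1 := fun g hg => hsing g (Finset.mem_filter.mp hg).2
  have hRmem : ∀ g ∈ R, 0 ≤ f g ∧ f g ≤ (p : ℤ) - 1 := fun g hg =>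
    ⟨hreg g (Finset.mem_filter.mp hg).2, h1 ▸ hle g⟩
  have h1R : (1 : H) ∈ R := by
    refine Finset.mem_filter.mpr ⟨Finset.mem_univ _, ?_⟩
    rw [orderOf_one]
    intro hd
    have := Nat.le_of_dvd one_pos hd
    omega
  have hS1 : ∑ g ∈ S, f g = -(S.card : ℤ) := by
    rw [Finset.sum_congr rfl hSmem]
    simp
  have hS2 : ∑ g ∈ S, f g ^ 2 = (S.card : ℤ) := by
    have h : ∀ g ∈ S, f g ^ 2 = 1 := fun g hg => by rw [hSmem g hg]; norm_num
    rw [Finset.sum_congr rfl h]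
    simp
  have hS3 : ∑ g ∈ S, f g ^ 3 = -(S.card : ℤ) := by
    have h : ∀ g ∈ S, f g ^ 3 = -1 := fun g hg => by rw [hSmem g hg]; norm_num
    rw [Finset.sum_congr rfl h]
    simp
  have hc : 2 * (p : ℤ) * (S.card : ℤ) = (Nat.card H : ℤ) * ((p : ℤ) - 1) := by
    have h := hcount
    rw [hP] at h
    have h1p : 1 ≤ p := by omega
    zify [h1p] at h
    linarith
  have e1 : ∑ g : H, f g = ∑ g ∈ S, f g + ∑ g ∈ R, f g := hsplit f
  have e2 : ∑ g : H, f g ^ 2 = ∑ g ∈ S, f g ^ 2 + ∑ g ∈ R, f g ^ 2 := hsplit (fun g => f g ^ 2)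
  have e3 : ∑ g : H, f g ^ 3 = ∑ g ∈ S, f g ^ 3 + ∑ g ∈ R, f g ^ 3 := hsplit (fun g => f g ^ 3)
  have hA : ∑ g ∈ R, f g = (S.card : ℤ) := by
    rw [hs1, hS1] at e1; linarith
  have hB : ∑ g ∈ R, f g ^ 2 = (Nat.card H : ℤ) - (S.card : ℤ) := by
    rw [hs2, hS2] at e2; linarith
  have hC : ∑ g ∈ R, f g ^ 3 = (Nat.card H : ℤ) * (y : ℤ) + (S.card : ℤ) := by
    rw [hs3, hS3] at e3; linarith
  -- the cubic sum
  have hT1 : ∑ g ∈ R, f g * (f g - 1) * (f g - ((p : ℤ) - 1)) =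
      (Nat.card H : ℤ) * ((y : ℤ) - 1) := by
    have h : ∑ g ∈ R, f g * (f g - 1) * (f g - ((p : ℤ) - 1)) =
        ∑ g ∈ R, f g ^ 3 - (p : ℤ) * ∑ g ∈ R, f g ^ 2 + ((p : ℤ) - 1) * ∑ g ∈ R, f g := by
      rw [Finset.mul_sum, Finset.mul_sum, ← Finset.sum_sub_distrib, ← Finset.sum_add_distrib]
      exact Finset.sum_congr rfl (fun g _ => by ring)
    rw [h, hA, hB, hC]
    linear_combination hc
  have hT1le : ∀ g ∈ R, f g * (f g - 1) * (f g - ((p : ℤ) - 1)) ≤ 0 := by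
    intro g hg
    obtain ⟨h0, hp1⟩ := hRmem g hg
    rcases h0.lt_or_eq with h0 | h0
    · exact mul_nonpos_of_nonneg_of_nonpos (mul_nonneg h0.le (by linarith)) (by linarith)
    · rw [← h0]; simp
  have hy1 : (y : ℤ) - 1 ≤ 0 := by
    by_contra hcon
    push_neg at hcon
    have h := mul_pos hNpos hcon
    have h' := Finset.sum_nonpos hT1le
    rw [hT1] at h'
    linarith
  have hT2 : ∑ g ∈ R, (f g ^ 3 - f g) = (Nat.card H : ℤ) * (y : ℤ) := by
    rw [Finset.sum_sub_distrib, hC, hA]; ring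
  have hT2pos : 0 < ∑ g ∈ R, (f g ^ 3 - f g) := by
    apply Finset.sum_pos'
    · intro g hg
      obtain ⟨h0, -⟩ := hRmem g hg
      have h : f g ^ 3 - f g = f g * (f g - 1) * (f g + 1) := by ring
      rw [h]
      rcases h0.lt_or_eq with h0 | h0
      · exact mul_nonneg (mul_nonneg h0.le (by linarith)) (by linarith)
      · rw [← h0]; simp
    · refine ⟨1, h1R, ?_⟩
      have h : f 1 ^ 3 - f 1 = f 1 * (f 1 - 1) * (f 1 + 1) := by ring
      rw [h, h1]
      exact mul_pos (mul_pos (by linarith) (by linarith)) (by linarith)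
  have hy : (y : ℤ) = 1 := by
    rw [hT2] at hT2pos
    have hy0 : (0 : ℤ) < (y : ℤ) := by
      by_contra hcon
      push_neg at hcon
      have := mul_nonpos_of_nonneg_of_nonpos hNpos.le hcon
      linarith
    linarith
  have hzero : ∀ g ∈ R, f g = 0 ∨ f g = 1 ∨ f g = (p : ℤ) - 1 := by
    have hsum0 : ∑ g ∈ R, f g * (f g - 1) * (f g - ((p : ℤ) - 1)) = 0 := by
      rw [hT1, hy]; ring
    intro g hg
    have h := (Finset.sum_eq_zero_iff_of_nonpos hT1le).mp hsum0 g hg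
    rcases mul_eq_zero.mp h with h | h
    · rcases mul_eq_zero.mp h with h | h
      · exact Or.inl h
      · exact Or.inr (Or.inl (by linarith))
    · exact Or.inr (Or.inr (by linarith))
  have hT3 : ∑ g ∈ R, f g * (f g - 1) = ((p : ℤ) - 1) * ((p : ℤ) - 2) := by
    have h : ∀ g ∈ R, f g * (f g - 1) = if g = 1 then ((p : ℤ) - 1) * ((p : ℤ) - 2) else 0 := by
      intro g hg
      by_cases hg1 : g = 1
      · rw [if_pos hg1, hg1, h1]; ring
      · rw [if_neg hg1]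
        rcases hzero g hg with h0 | h0 | h0
        · rw [h0]; ring
        · rw [h0]; ring
        · exact absurd (hfaith g (Finset.mem_filter.mp hg).2 h0) hg1
    rw [Finset.sum_congr rfl h, Finset.sum_ite_eq' R 1, if_pos h1R]
  have hT3' : ∑ g ∈ R, f g * (f g - 1) = ∑ g ∈ R, f g ^ 2 - ∑ g ∈ R, f g := by
    rw [← Finset.sum_sub_distrib]
    exact Finset.sum_congr rfl (fun g _ => by ring)
  have hfinal : (Nat.card H : ℤ) = (p : ℤ) * ((p : ℤ) - 1) * ((p : ℤ) - 2) := by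
    rw [hT3', hB, hA] at hT3
    linear_combination (p : ℤ) * hT3 + hc
  have h1p : 1 ≤ p := by omega
  have h2p : 2 ≤ p := by omega
  zify [h1p, h2p]
  exact hfinal

end Cfsg.Agent.Helper1
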