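import Mathlib
import Cfsg.Agent.Helper79.S4705Defs
import Cfsg.Agent.Helper4.S4504SING

/-!
helper1: SUB-CALL S4705O (helper79), piece SING: the `p`-singular elements.
-/

set_option autoImplicit false
open Cfsg Cfsg.Agent.Helper79
open scoped Pointwise

universe u

namespace Cfsg.Agent.Helper1

variable {H : Type u} [Group H] [Finite H]

/-- every `p`-singular element is conjugate to a non-identity element of `⟨x⟩` -/
theorem s4705o_sing_conj (p : ℕ) [Fact p.Prime] (x : H) (hx : orderOf x = p)
    (hsq : ¬ p ^ 2 ∣ Nat.card H)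
    (hcent : ∀ g : H, g * x = x * g → ∃ i : ℕ, g = x ^ i) :
    ∀ g : H, p ∣ orderOf g → ∃ (y : H) (b : ℕ), ¬ p ∣ b ∧ y * g * y⁻¹ = x ^ b := by
  have hp : p.Prime := Fact.out
  intro g hg
  have hg0 : orderOf g ≠ 0 := (orderOf_pos g).ne'
  set k := orderOf g / p with hk
  have hw : orderOf (g ^ k) = p := orderOf_pow_orderOf_div hg0 hg
  have hwP : IsPGroup p (Subgroup.zpowers (g ^ k)) :=
    IsPGroup.iff_card.mpr ⟨1, by rw [Nat.card_zpowers, hw, pow_one]⟩
  have hxP : IsPGroup p (Subgroup.zpowers x) :=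
    IsPGroup.iff_card.mpr ⟨1, by rw [Nat.card_zpowers, hx, pow_one]⟩
  obtain ⟨Q, hQ⟩ := hwP.exists_le_sylow
  obtain ⟨Q', hQ'⟩ := hxP.exists_le_sylow
  obtain ⟨c, hc⟩ := MulAction.exists_smul_eq H Q Q'
  have hQ'eq : (Q' : Subgroup H) = Subgroup.zpowers x :=
    Cfsg.Agent.Helper4.s4504s_pgroup_eq p hsq _ Q'.isPGroup' hx (hQ' (Subgroup.mem_zpowers x))
  have hcw : c * g ^ k * c⁻¹ ∈ Subgroup.zpowers x := by
    have h1 : (MulAut.conj c) • (g ^ k) ∈ (MulAut.conj c) • (Q : Subgroup H) :=
      Subgroup.smul_mem_pointwise_smul _ _ _ (hQ (Subgroup.mem_zpowers _))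
    rw [← Sylow.coe_subgroup_smul, hc, hQ'eq] at h1
    simpa [MulAut.smul_def] using h1
  -- `g' = c g c⁻¹` commutes with `x`
  have hw' : orderOf (c * g ^ k * c⁻¹) = p := by
    rw [Cfsg.Agent.Helper4.s4504s_orderOf_conj, hw]
  have hzp : Subgroup.zpowers (c * g ^ k * c⁻¹) = Subgroup.zpowers x := by
    apply Subgroup.eq_of_le_of_card_ge (Subgroup.zpowers_le.mpr hcw)
    rw [Nat.card_zpowers, Nat.card_zpowers, hw', hx]
  have hxm : x ∈ Subgroup.zpowers (c * g ^ k * c⁻¹) := by
    rw [hzp]; exact Subgroup.mem_zpowers x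
  obtain ⟨m, hm⟩ := Subgroup.mem_zpowers_iff.mp hxm
  have hpow : c * g ^ k * c⁻¹ = (c * g * c⁻¹) ^ k := (conj_pow (a := c) (b := g) (i := k)).symm
  have hcomm : c * g * c⁻¹ * x = x * (c * g * c⁻¹) := by
    rw [← hm, hpow]
    have h1 : Commute (c * g * c⁻¹) (((c * g * c⁻¹) ^ k) ^ m) :=
      ((Commute.refl (c * g * c⁻¹)).pow_right k).zpow_right m
    exact h1.eq
  obtain ⟨i, hi⟩ := hcent _ hcomm
  refine ⟨c, i, ?_, hi⟩
  intro hpi
  have h1 : x ^ i = 1 := by
    rw [← hx] at hpi
    exact orderOf_dvd_iff_pow_eq_one.mp hpi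
  rw [h1] at hi
  have h2 : g = 1 := by
    have : c * g * c⁻¹ = c * 1 * c⁻¹ := by rw [hi]; group
    exact mul_left_cancel (mul_right_cancel this)
  rw [h2, orderOf_one] at hg
  exact hp.one_lt.ne' (Nat.dvd_one.mp hg)

/-- SING: the `p`-singular elements. -/
theorem s4705o_sing (p : ℕ) [Fact p.Prime] (x : H) (ζ : H → ℂ) (h : S4705Wk p x ζ)
    (S : S4705Shape p x ζ) (hZ : Subgroup.center H = ⊥) :
    2 * p * Nat.card {g : H // p ∣ orderOf g} = Nat.card H * (p - 1) ∧
    ∀ g : H, p ∣ orderOf g → ∃ (y : H) (b : ℕ), ¬ p ∣ b ∧ y * g * y⁻¹ = x ^ b := by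
  classical
  letI : Fintype H := Fintype.ofFinite H
  have hp : p.Prime := Fact.out
  have hx := h.hx
  have hp5 := h.hp
  have hcent : ∀ g : H, g * x = x * g → ∃ i : ℕ, g = x ^ i := by
    intro g hg
    obtain ⟨i, z, hz, hgz⟩ := S.hcent g hg
    rw [hZ, Subgroup.mem_bot] at hz
    exact ⟨i, by rw [hgz, hz, mul_one]⟩
  have hconj := s4705o_sing_conj p x hx h.hsq hcent
  refine ⟨?_, hconj⟩
  obtain ⟨t, ht⟩ := S.hinv
  set P : Subgroup H := Subgroup.zpowers x with hP
  let Pf : Finset H := Finset.univ.filter (fun u : H => u ∈ P)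
  let M : Finset H := Finset.univ.filter (fun n : H => n * x * n⁻¹ ∈ P)
  have hPf : Pf.card = p := by
    have h1 : Pf.card = Fintype.card {u : H // u ∈ P} := (Fintype.card_subtype _).symm
    rw [h1, ← Nat.card_eq_fintype_card]
    show Nat.card (Subgroup.zpowers x) = p
    rw [Nat.card_zpowers, hx]
  -- elements of `P`
  have hPcomm : ∀ u ∈ P, u * x = x * u := by
    intro u hu
    obtain ⟨j, rfl⟩ := Subgroup.mem_zpowers_iff.mp hu
    exact ((Commute.refl x).zpow_left j).eq
  have hPord : ∀ u ∈ P, u ≠ 1 → orderOf u = p := by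
    intro u hu hu1
    have h1 : u ^ p = 1 := by
      obtain ⟨j, rfl⟩ := Subgroup.mem_zpowers_iff.mp hu
      rw [← zpow_natCast, ← zpow_mul, mul_comm, zpow_mul, zpow_natCast, ← hx, pow_orderOf_eq_one,
        one_zpow]
    rcases (Nat.dvd_prime hp).mp (orderOf_dvd_of_pow_eq_one h1) with h2 | h2
    · exact absurd (orderOf_eq_one_iff.mp h2) hu1
    · exact h2
  have hx2 : x⁻¹ ≠ x := by
    intro hxx
    have h1 : x ^ 2 = 1 := by
      rw [pow_two]
      nth_rewrite 1 [← hxx]
      exact inv_mul_cancel x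
    have h2 := orderOf_dvd_of_pow_eq_one h1
    rw [hx] at h2
    have := Nat.le_of_dvd (by norm_num) h2
    omega
  -- `M = P ∪ tP`
  have hM : M.card = 2 * p := by
    have hMeq : M = Pf ∪ Pf.image (fun u => t * u) := by
      ext n
      simp only [M, Pf, Finset.mem_filter, Finset.mem_univ, true_and, Finset.mem_union,
        Finset.mem_image]
      constructor
      · intro hn
        rcases S.hnorm n hn with h1 | h1
        · left
          have h2 : n * x = x * n := by
            have := congrArg (· * n) h1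
            simpa [mul_assoc] using this
          obtain ⟨i, hi⟩ := hcent n h2
          rw [hi]
          exact Subgroup.pow_mem _ (Subgroup.mem_zpowers x) i
        · right
          refine ⟨t⁻¹ * n, ?_, by group⟩
          have h2 : (t⁻¹ * n) * x = x * (t⁻¹ * n) := by
            have h3 : n * x = x⁻¹ * n := by
              have := congrArg (· * n) h1
              simpa [mul_assoc] using this
            have h4 : t * x = x⁻¹ * t := by
              have := congrArg (· * t) ht
              simpa [mul_assoc] using this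
            have h5 : x * t⁻¹ = t⁻¹ * x⁻¹ := by
              have : t⁻¹ * (t * x) * t⁻¹ = t⁻¹ * (x⁻¹ * t) * t⁻¹ := by rw [h4]
              simpa [mul_assoc] using this
            calc t⁻¹ * n * x = t⁻¹ * (n * x) := by group
              _ = t⁻¹ * (x⁻¹ * n) := by rw [h3]
              _ = (t⁻¹ * x⁻¹) * n := by group
              _ = (x * t⁻¹) * n := by rw [h5]
              _ = x * (t⁻¹ * n) := by group
          obtain ⟨i, hi⟩ := hcent _ h2
          rw [hi]
          exact Subgroup.pow_mem _ (Subgroup.mem_zpowers x) i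
      · rintro (hn | ⟨u, hu, rfl⟩)
        · have h2 := hPcomm n hn
          have h3 : n * x * n⁻¹ = x := by rw [h2]; group
          rw [h3]; exact Subgroup.mem_zpowers x
        · have h2 := hPcomm u hu
          have h3 : t * u * x * (t * u)⁻¹ = x⁻¹ := by
            calc t * u * x * (t * u)⁻¹ = t * (u * x) * u⁻¹ * t⁻¹ := by group
              _ = t * (x * u) * u⁻¹ * t⁻¹ := by rw [h2]
              _ = t * x * t⁻¹ := by group
              _ = x⁻¹ := ht
          rw [h3]; exact Subgroup.inv_mem _ (Subgroup.mem_zpowers x)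
    have hdisj : Disjoint Pf (Pf.image (fun u => t * u)) := by
      rw [Finset.disjoint_left]
      intro n hn hn'
      simp only [Pf, Finset.mem_filter, Finset.mem_univ, true_and, Finset.mem_image] at hn hn'
      obtain ⟨u, hu, rfl⟩ := hn'
      have htP : t ∈ P := by
        have := P.mul_mem hn (P.inv_mem hu)
        simpa using this
      have h2 := hPcomm t htP
      apply hx2
      rw [← ht, h2]; group
    rw [hMeq, Finset.card_union_of_disjoint hdisj,
      Finset.card_image_of_injective _ (mul_right_injective t), hPf]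
    ring
  -- conjugation and `P`
  have hK : ∀ (n : H) (b : ℕ), ¬ p ∣ b → (n * x ^ b * n⁻¹ ∈ P ↔ n * x * n⁻¹ ∈ P) := by
    intro n b hb
    have hcop : b.Coprime (orderOf x) := by
      rw [hx]; exact ((Nat.Prime.coprime_iff_not_dvd hp).mpr hb).symm
    obtain ⟨m, hm⟩ := exists_pow_eq_self_of_coprime hcop
    constructor
    · intro h1
      have h2 : n * x * n⁻¹ = (n * x ^ b * n⁻¹) ^ m := by
        rw [conj_pow, hm]
      rw [h2]; exact Subgroup.pow_mem _ h1 m
    · intro h1
      rw [← conj_pow]; exact Subgroup.pow_mem _ h1 b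
  -- the two fibre counts
  have hL1 : ∀ y : H, (Finset.univ.filter
      (fun g : H => p ∣ orderOf g ∧ y * g * y⁻¹ ∈ P)).card = p - 1 := by
    intro y
    have h1 : (Finset.univ.filter (fun g : H => p ∣ orderOf g ∧ y * g * y⁻¹ ∈ P)).card =
        (Pf.erase 1).card := by
      apply Finset.card_nbij' (fun g => y * g * y⁻¹) (fun u => y⁻¹ * u * y)
      · intro g hg
        simp only [Finset.coe_filter, Finset.mem_univ, true_and, Set.mem_setOf_eq] at hg
        simp only [Pf, Finset.coe_erase, Finset.coe_filter, Finset.mem_univ, true_and,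
          Set.mem_diff, Set.mem_setOf_eq, Set.mem_singleton_iff]
        refine ⟨hg.2, fun h1 => ?_⟩
        have h2 : g = 1 := by
          have : y * g * y⁻¹ = y * 1 * y⁻¹ := by rw [h1]; group
          exact mul_left_cancel (mul_right_cancel this)
        rw [h2, orderOf_one] at hg
        exact hp.one_lt.ne' (Nat.dvd_one.mp hg.1)
      · intro u hu
        simp only [Pf, Finset.coe_erase, Finset.coe_filter, Finset.mem_univ, true_and,
          Set.mem_diff, Set.mem_setOf_eq, Set.mem_singleton_iff] at hu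
        simp only [Finset.coe_filter, Finset.mem_univ, true_and, Set.mem_setOf_eq]
        refine ⟨?_, ?_⟩
        · have h2 : orderOf (y⁻¹ * u * y) = p := by
            have := Cfsg.Agent.Helper4.s4504s_orderOf_conj y⁻¹ u
            rw [inv_inv] at this
            rw [this, hPord u hu.1 hu.2]
          rw [h2]
        · have : y * (y⁻¹ * u * y) * y⁻¹ = u := by group
          rw [this]; exact hu.1
      · intro g _; group
      · intro u _; group
    rw [h1, Finset.card_erase_of_mem (by simp [Pf, Subgroup.one_mem]), hPf]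
  have hL2 : ∀ g : H, p ∣ orderOf g →
      (Finset.univ.filter (fun y : H => y * g * y⁻¹ ∈ P)).card = 2 * p := by
    intro g hg
    obtain ⟨y₀, b, hb, hyb⟩ := hconj g hg
    have hg' : g = y₀⁻¹ * x ^ b * y₀ := by rw [← hyb]; group
    rw [← hM]
    apply Finset.card_nbij' (fun y => y * y₀⁻¹) (fun n => n * y₀)
    · intro y hy
      simp only [Finset.coe_filter, Finset.mem_univ, true_and, Set.mem_setOf_eq] at hy
      simp only [M, Finset.coe_filter, Finset.mem_univ, true_and, Set.mem_setOf_eq]
      rw [← hK _ b hb]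
      have : y * y₀⁻¹ * x ^ b * (y * y₀⁻¹)⁻¹ = y * g * y⁻¹ := by rw [hg']; group
      rw [this]; exact hy
    · intro n hn
      simp only [M, Finset.coe_filter, Finset.mem_univ, true_and, Set.mem_setOf_eq] at hn
      simp only [Finset.coe_filter, Finset.mem_univ, true_and, Set.mem_setOf_eq]
      have : n * y₀ * g * (n * y₀)⁻¹ = n * x ^ b * n⁻¹ := by rw [hg']; group
      rw [this]; exact (hK n b hb).mpr hn
    · intro y _; group
    · intro n _; group
  -- double counting
  have hcount : ∑ g : H, ∑ y : H, (if p ∣ orderOf g ∧ y * g * y⁻¹ ∈ P then 1 else 0 : ℕ) =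
      ∑ y : H, ∑ g : H, (if p ∣ orderOf g ∧ y * g * y⁻¹ ∈ P then 1 else 0 : ℕ) :=
    Finset.sum_comm
  have hleft : ∑ g : H, ∑ y : H, (if p ∣ orderOf g ∧ y * g * y⁻¹ ∈ P then 1 else 0 : ℕ) =
      2 * p * (Finset.univ.filter (fun g : H => p ∣ orderOf g)).card := by
    have h1 : ∀ g : H, ∑ y : H, (if p ∣ orderOf g ∧ y * g * y⁻¹ ∈ P then 1 else 0 : ℕ) =
        if p ∣ orderOf g then 2 * p else 0 := by
      intro g
      by_cases hg : p ∣ orderOf g
      · rw [if_pos hg, ← hL2 g hg, Finset.card_filter]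
        exact Finset.sum_congr rfl (fun y _ => by simp [hg])
      · rw [if_neg hg]
        exact Finset.sum_eq_zero (fun y _ => by simp [hg])
    rw [Finset.sum_congr rfl (fun g _ => h1 g), ← Finset.sum_filter, Finset.sum_const,
      smul_eq_mul, mul_comm]
  have hright : ∑ y : H, ∑ g : H, (if p ∣ orderOf g ∧ y * g * y⁻¹ ∈ P then 1 else 0 : ℕ) =
      Nat.card H * (p - 1) := by
    have h1 : ∀ y : H, ∑ g : H, (if p ∣ orderOf g ∧ y * g * y⁻¹ ∈ P then 1 else 0 : ℕ) =
        p - 1 := by
      intro y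
      rw [← hL1 y, Finset.card_filter]
    rw [Finset.sum_congr rfl (fun y _ => h1 y), Finset.sum_const, smul_eq_mul,
      Finset.card_univ, Nat.card_eq_fintype_card]
  have hcard : Nat.card {g : H // p ∣ orderOf g} =
      (Finset.univ.filter (fun g : H => p ∣ orderOf g)).card := by
    rw [Nat.card_eq_fintype_card, Fintype.card_subtype]
  rw [hcard, ← hleft, hcount, hright]

end Cfsg.Agent.Helper1
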