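import Cfsg.Agent.Helper67.S77Defs

set_option autoImplicit false
set_option linter.unusedSectionVars false
set_option linter.unusedVariables false

namespace Cfsg.Agent.Helper1.S77F10

open Finset Cfsg.Agent.Helper67.S77

variable {V : Type*} [Fintype V] [DecidableEq V] {G : SimpleGraph V} [DecidableRel G.Adj]

theorem p_F10 (hG : G.IsSRGWith 77 16 0 4) (h5 : F5 G) (h7 : F7 G) (h8 : F8 G) (h9 : F9 G) :
    F10 G := by
  intro x y hxy
  have hPx : ∀ p ∈ Par G x y, p ≠ x ∧ p ≠ y ∧ ¬ G.Adj x p ∧ ¬ G.Adj y p :=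
    fun p hp => mem_Rs.mp (mem_Par.mp hp).1
  have hP0 : ∀ p ∈ Par G x y, t3 G x y p = 0 := fun p hp => (mem_Par.mp hp).2
  refine ⟨?_, ?_, ?_⟩
  · -- five points
    unfold lineOf
    have hy : y ∉ Par G x y := fun h => (hPx y h).2.1 rfl
    have hx : x ∉ insert y (Par G x y) := by
      intro h
      rcases Finset.mem_insert.mp h with h | h
      · exact hxy.1 h
      · exact (hPx x h).1 rfl
    rw [Finset.card_insert_of_notMem hx, Finset.card_insert_of_notMem hy, h5 x y hxy]
  · -- pairwise nonadjacent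
    intro a ha b hb
    rcases mem_lineOf.mp ha with ha' | ha' | ha' <;> rcases mem_lineOf.mp hb with hb' | hb' | hb'
    · rw [ha', hb']; exact G.irrefl
    · rw [ha', hb']; exact hxy.2
    · rw [ha']; exact (hPx b hb').2.2.1
    · rw [ha', hb']; exact fun h => hxy.2 h.symm
    · rw [ha', hb']; exact G.irrefl
    · rw [ha']; exact (hPx b hb').2.2.2
    · rw [hb']; exact fun h => (hPx a ha').2.2.1 h.symm
    · rw [hb']; exact fun h => (hPx a ha').2.2.2 h.symm
    · intro hab
      have h2 := h7 x y hxy a ha' b hab (hPx b hb').2.2.1 (hPx b hb').2.2.2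
      rw [hP0 b hb'] at h2
      exact absurd h2 (by norm_num)
  · -- no three with a common neighbour
    intro a ha b hb c hc hab hac hbc
    unfold t3
    rw [Finset.card_eq_zero, Finset.eq_empty_iff_forall_notMem]
    intro v hv
    simp only [Finset.mem_inter, SimpleGraph.mem_neighborFinset] at hv
    obtain ⟨⟨hav, hbv⟩, hcv⟩ := hv
    have hA : G.Adj x v → G.Adj y v → ∀ p ∈ Par G x y, ¬ G.Adj p v := by
      intro hxv hyv p hp hpv
      have h0 := hP0 p hp
      unfold t3 at h0
      rw [Finset.card_eq_zero, Finset.eq_empty_iff_forall_notMem] at h0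
      apply h0 v
      simp only [Finset.mem_inter, SimpleGraph.mem_neighborFinset]
      exact ⟨⟨hxv, hyv⟩, hpv⟩
    have hB : ∀ p ∈ Par G x y, ∀ q ∈ Par G x y, p ≠ q → G.Adj p v → G.Adj q v →
        ¬ G.Adj x v ∧ ¬ G.Adj y v := by
      intro p hp q hq hpq hpv hqv
      have h := mem_Rs.mp (h9 x y hxy p hp q hq hpq v hpv hqv).1
      exact ⟨h.2.2.1, h.2.2.2⟩
    have hC : ∀ p ∈ Par G x y, ∀ q ∈ Par G x y, ∀ r ∈ Par G x y, p ≠ q → p ≠ r → q ≠ r →
        G.Adj p v → G.Adj q v → G.Adj r v → False := by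
      intro p hp q hq r hr hpq hpr hqr hpv hqv hrv
      obtain ⟨hvR, hv2⟩ := h9 x y hxy p hp q hq hpq v hpv hqv
      have h2 := h8 x y hxy v hvR hv2
      have hsub : ({p, q, r} : Finset V) ⊆ (Par G x y).filter (fun z => G.Adj v z) := by
        intro u hu
        simp only [Finset.mem_insert, Finset.mem_singleton] at hu
        rw [Finset.mem_filter]
        rcases hu with rfl | rfl | rfl
        · exact ⟨hp, hpv.symm⟩
        · exact ⟨hq, hqv.symm⟩
        · exact ⟨hr, hrv.symm⟩
      have h3 : ({p, q, r} : Finset V).card = 3 :=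
        Finset.card_eq_three.mpr ⟨p, q, r, hpq, hpr, hqr, rfl⟩
      have := Finset.card_le_card hsub
      omega
    rcases mem_lineOf.mp ha with rfl | rfl | ha' <;>
    rcases mem_lineOf.mp hb with rfl | rfl | hb' <;>
    rcases mem_lineOf.mp hc with rfl | rfl | hc' <;>
    first
      | exact hab rfl
      | exact hac rfl
      | exact hbc rfl
      | exact hA hav hbv c hc' hcv
      | exact hA hbv hav c hc' hcv
      | exact hA hav hcv b hb' hbv
      | exact hA hcv hav b hb' hbv
      | exact hA hbv hcv a ha' hav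
      | exact hA hcv hbv a ha' hav
      | exact (hB b hb' c hc' hbc hbv hcv).1 hav
      | exact (hB b hb' c hc' hbc hbv hcv).2 hav
      | exact (hB a ha' c hc' hac hav hcv).1 hbv
      | exact (hB a ha' c hc' hac hav hcv).2 hbv
      | exact (hB a ha' b hb' hab hav hbv).1 hcv
      | exact (hB a ha' b hb' hab hav hbv).2 hcv
      | exact hC a ha' b hb' c hc' hab hac hbc hav hbv hcv

end Cfsg.Agent.Helper1.S77F10
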