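import Cfsg.Agent.Helper67.S77Defs

set_option autoImplicit false
set_option linter.unusedSectionVars false
set_option linter.unusedVariables false

namespace Cfsg.Agent.Helper1.S77F17a

open Finset Cfsg.Agent.Helper67.S77

variable {V : Type*} [Fintype V] [DecidableEq V] {G : SimpleGraph V} [DecidableRel G.Adj]

theorem p_F17a (hG : G.IsSRGWith 77 16 0 4) (h7 : F7 G) : F17a G := by
  intro x y z hxy hxz hyz ht
  have ht' : t3 G y z x = 1 := by rw [← t3_rot]; exact ht
  refine ⟨?_, ?_⟩
  · intro hx
    rcases mem_lineOf.mp hx with h | h | h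
    · exact hxy.1 h
    · exact hxz.1 h
    · have h0 := (mem_Par.mp h).2
      rw [ht'] at h0
      exact one_ne_zero h0
  · intro v hv hxv
    rcases mem_lineOf.mp hv with h | h | h
    · exact hxy.2 (h ▸ hxv)
    · exact hxz.2 (h ▸ hxv)
    · have h2 := h7 y z hyz v h x hxv.symm (fun h' => hxy.2 h'.symm) (fun h' => hxz.2 h'.symm)
      rw [ht'] at h2
      exact absurd h2 (by norm_num)

end Cfsg.Agent.Helper1.S77F17a
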